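import Cfsg.Agent.H918.UBase
import Cfsg.Agent.H908.SLTrans
import Cfsg.Agent.H956.OrthIndex
import Cfsg.Agent.S0242
import Cfsg.Agent.S0243
import Cfsg.Agent.S0278
import Cfsg.Agent.S0280
import Cfsg.Agent.S0293
import Cfsg.Agent.S0294

/-!
# Simple groups of Lie type in characteristic `p` inside `SL_8(p)` and `SU_8(p)`: orders

`P ≤ SL_8(p)` (`p ≡ 1 mod 4`) or `P ≤ SU_8(p)` (`p ≡ 3 mod 4`) perfect with `4 ∣ |P ∩ scalars|` and `P / scalars`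
isomorphic to a group `PSL_m(K)`, `PSU_m(K)`, `m ≥ 8`, or `PΩ^±_2l(K)`, `l ≥ 7`, `K` of characteristic `p`.
Then `P` is the whole group.
-/

set_option autoImplicit false

namespace Cfsg.Agent.H918.Order8

open Cfsg Cfsg.Geo Cfsg.Agent.H918
open scoped MatrixGroups

/-! ### Arithmetic -/

theorem pow_dvd_of_mul {p : ℕ} (hp : p.Prime) {a N e : ℕ} (h : p ^ e ∣ a * N) (ha : ¬ p ∣ a) : p ^ e ∣ N :=
  (Nat.Coprime.pow_left e ((Nat.Prime.coprime_iff_not_dvd hp).2 ha)).dvd_of_dvd_mul_left h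

theorem not_dvd_pow_sub_one {p : ℕ} (hp : p.Prime) {j : ℕ} (hj : j ≠ 0) : ¬ p ∣ p ^ j - 1 := by
  intro h
  have h1 : p ∣ p ^ j := dvd_pow_self p hj
  have h2 : 1 ≤ p ^ j := Nat.one_le_pow _ _ hp.pos
  have h3 : p ∣ 1 := by
    have := (Nat.dvd_sub h1 h)
    rwa [Nat.sub_sub_self h2] at this
  exact hp.one_lt.ne' (Nat.dvd_one.1 h3)

theorem not_dvd_pow_add_one {p : ℕ} (hp : p.Prime) {j : ℕ} (hj : j ≠ 0) : ¬ p ∣ p ^ j + 1 := by
  intro h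
  have h1 : p ∣ p ^ j := dvd_pow_self p hj
  have h3 : p ∣ 1 := (Nat.dvd_add_right h1).1 h
  exact hp.one_lt.ne' (Nat.dvd_one.1 h3)

theorem not_dvd_of_dvd {p a b : ℕ} (h : ¬ p ∣ b) (hab : a ∣ b) : ¬ p ∣ a := fun h' => h (h'.trans hab)

theorem not_dvd_mul {p : ℕ} (hp : p.Prime) {a b : ℕ} (ha : ¬ p ∣ a) (hb : ¬ p ∣ b) : ¬ p ∣ a * b := by
  intro h
  rcases (hp.dvd_mul).1 h with h | h
  · exact ha h
  · exact hb h

/-- the order of `SL_8(p)` -/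
theorem card_sl_eight {F : Type*} [Field F] [Fintype F] {p : ℕ} (hp : p.Prime) (hF : Fintype.card F = p) :
    Nat.card (specialLinear (Fin 8) F) = p ^ 28 * ((p ^ 2 - 1) * (p ^ 3 - 1) * (p ^ 4 - 1) * (p ^ 5 - 1) * (p ^ 6 - 1) *
      (p ^ 7 - 1) * (p ^ 8 - 1)) := by
  rw [Cfsg.Agent.H956.OrthIndex.card_sl]
  have h := Cfsg.Agent.S0242.result hF 8 (by norm_num)
  have h1 : 1 ≤ p := hp.pos
  have key : ∀ i : ℕ, i ≤ 8 → p ^ 8 - p ^ i = p ^ i * (p ^ (8 - i) - 1) := by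
    intro i hi
    rw [Nat.mul_sub, ← pow_add, mul_one, Nat.add_sub_cancel' hi]
  rw [Fin.prod_univ_eight] at h
  simp only [Fin.val_zero, Fin.val_one] at h
  have e2 : ((2 : Fin 8) : ℕ) = 2 := rfl
  have e3 : ((3 : Fin 8) : ℕ) = 3 := rfl
  have e4 : ((4 : Fin 8) : ℕ) = 4 := rfl
  have e5 : ((5 : Fin 8) : ℕ) = 5 := rfl
  have e6 : ((6 : Fin 8) : ℕ) = 6 := rfl
  have e7 : ((7 : Fin 8) : ℕ) = 7 := rfl
  rw [e2, e3, e4, e5, e6, e7, key 0 (by norm_num), key 1 (by norm_num), key 2 (by norm_num), key 3 (by norm_num),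
    key 4 (by norm_num), key 5 (by norm_num), key 6 (by norm_num), key 7 (by norm_num)] at h
  have hpos : 0 < p - 1 := Nat.sub_pos_of_lt hp.one_lt
  apply Nat.eq_of_mul_eq_mul_left hpos
  rw [h]
  norm_num
  ring

/-- the order of `SU_8(p)` -/
theorem card_su_eight {F : Type*} [Field F] [Fintype F] {p : ℕ} (hF : Fintype.card F = p ^ 2) :
    Nat.card (SUg 8 F p) = p ^ 28 * ((p ^ 2 - 1) * (p ^ 3 + 1) * (p ^ 4 - 1) * (p ^ 5 + 1) * (p ^ 6 - 1) *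
      (p ^ 7 + 1) * (p ^ 8 - 1)) := by
  have h1 := Cfsg.Agent.S0278.result hF 8 (by norm_num)
  have h2 : Nat.card (Cfsg.SU 8 F p) = Nat.card (SUg 8 F p) := by
    rw [← range_suHom]
    exact Nat.card_congr (MonoidHom.ofInjective suHom_injective).toEquiv
  rw [h2] at h1
  apply Nat.eq_of_mul_eq_mul_left (show 0 < p + 1 by omega)
  rw [h1]
  simp only [Finset.prod_range_succ, Finset.prod_range_zero]
  norm_num [Nat.even_iff]
  ring

theorem card_psl_eight {F : Type*} [Field F] [Fintype F] {p : ℕ} (hp : p.Prime) (hF : Fintype.card F = p) :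
    Nat.gcd 8 (p - 1) * Nat.card (Matrix.ProjectiveSpecialLinearGroup (Fin 8) F) =
      p ^ 28 * ((p ^ 2 - 1) * (p ^ 3 - 1) * (p ^ 4 - 1) * (p ^ 5 - 1) * (p ^ 6 - 1) * (p ^ 7 - 1) * (p ^ 8 - 1)) := by
  have h := Cfsg.Agent.S0243.result hF 8 (by norm_num)
  have h' := Cfsg.Agent.S0242.result hF 8 (by norm_num)
  have hpos : 0 < p - 1 := Nat.sub_pos_of_lt hp.one_lt
  rw [← card_sl_eight hp hF, Cfsg.Agent.H956.OrthIndex.card_sl]
  apply Nat.eq_of_mul_eq_mul_left hpos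
  rw [h', ← h]
  ring

theorem card_psu_eight {F : Type*} [Field F] [Fintype F] {p : ℕ} (hF : Fintype.card F = p ^ 2) :
    Nat.gcd 8 (p + 1) * Nat.card (Cfsg.PSU 8 F p) =
      p ^ 28 * ((p ^ 2 - 1) * (p ^ 3 + 1) * (p ^ 4 - 1) * (p ^ 5 + 1) * (p ^ 6 - 1) * (p ^ 7 + 1) * (p ^ 8 - 1)) := by
  have h := Cfsg.Agent.S0280.result hF 8 (by norm_num)
  apply Nat.eq_of_mul_eq_mul_left (show 0 < p + 1 by omega)
  have h' : (p + 1) * (Nat.gcd 8 (p + 1) * Nat.card (Cfsg.PSU 8 F p)) =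
      Nat.gcd 8 (p + 1) * ((p + 1) * Nat.card (Cfsg.PSU 8 F p)) := by ring
  rw [h', h]
  simp only [Finset.prod_range_succ, Finset.prod_range_zero]
  norm_num [Nat.even_iff]
  ring

theorem not_dvd_sl {F : Type*} [Field F] [Fintype F] {p : ℕ} (hp : p.Prime) (hF : Fintype.card F = p) :
    ¬ p ^ 29 ∣ Nat.card (specialLinear (Fin 8) F) := by
  rw [card_sl_eight hp hF, pow_succ p 28]
  intro h
  have h1 := Nat.dvd_of_mul_dvd_mul_left (pow_pos hp.pos 28) h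
  revert h1
  have a := fun j (hj : j ≠ 0) => not_dvd_pow_sub_one hp (j := j) hj
  exact not_dvd_mul hp (not_dvd_mul hp (not_dvd_mul hp (not_dvd_mul hp (not_dvd_mul hp (not_dvd_mul hp
    (a 2 (by norm_num)) (a 3 (by norm_num))) (a 4 (by norm_num))) (a 5 (by norm_num))) (a 6 (by norm_num)))
    (a 7 (by norm_num))) (a 8 (by norm_num))

theorem not_dvd_su {F : Type*} [Field F] [Fintype F] {p : ℕ} (hp : p.Prime) (hF : Fintype.card F = p ^ 2) :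
    ¬ p ^ 29 ∣ Nat.card (SUg 8 F p) := by
  rw [card_su_eight hF, pow_succ p 28]
  intro h
  have h1 := Nat.dvd_of_mul_dvd_mul_left (pow_pos hp.pos 28) h
  revert h1
  have a := fun j (hj : j ≠ 0) => not_dvd_pow_sub_one hp (j := j) hj
  have b := fun j (hj : j ≠ 0) => not_dvd_pow_add_one hp (j := j) hj
  exact not_dvd_mul hp (not_dvd_mul hp (not_dvd_mul hp (not_dvd_mul hp (not_dvd_mul hp (not_dvd_mul hp
    (a 2 (by norm_num)) (b 3 (by norm_num))) (a 4 (by norm_num))) (b 5 (by norm_num))) (a 6 (by norm_num)))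
    (b 7 (by norm_num))) (a 8 (by norm_num))

/-! ### `p`-parts of the orders of the simple groups -/

variable {K : Type} [Field K] [Fintype K] {p : ℕ}

theorem exists_card_eq [CharP K p] (hp : p.Prime) : ∃ f, 1 ≤ f ∧ Fintype.card K = p ^ f := by
  have := Fact.mk hp
  obtain ⟨n, -, hn⟩ := FiniteField.card K p
  exact ⟨n, n.2, hn⟩

theorem pow_dvd_psl (hp : p.Prime) {f m : ℕ} (hf : 1 ≤ f) (hK : Fintype.card K = p ^ f) (hm : 2 ≤ m) :
    p ^ (f * (m * (m - 1) / 2)) ∣ Nat.card (Matrix.ProjectiveSpecialLinearGroup (Fin m) K) := by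
  have h := Cfsg.Agent.S0243.result hK m hm
  have hq1 : ¬ p ∣ p ^ f - 1 := not_dvd_pow_sub_one hp (by omega)
  apply pow_dvd_of_mul hp _ hq1
  apply pow_dvd_of_mul hp _ (not_dvd_of_dvd hq1 (Nat.gcd_dvd_right m _))
  rw [h, pow_mul]
  have h1 : (p ^ f) ^ (m * (m - 1) / 2) = ∏ i : Fin m, (p ^ f) ^ (i : ℕ) := by
    rw [Finset.prod_pow_eq_pow_sum, Fin.sum_univ_eq_sum_range (fun i => i) m, Finset.sum_range_id]
  rw [h1]
  apply Finset.prod_dvd_prod_of_dvd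
  intro i _
  exact Nat.dvd_sub (pow_dvd_pow _ i.2.le) dvd_rfl

theorem pow_dvd_psu (hp : p.Prime) {f m q : ℕ} (hf : 1 ≤ f) (hq : q = p ^ f) (hK : Fintype.card K = q ^ 2)
    (hm : 2 ≤ m) : p ^ (f * (m * (m - 1) / 2)) ∣ Nat.card (Cfsg.PSU m K q) := by
  have h := Cfsg.Agent.S0280.result hK m hm
  have hq1 : ¬ p ∣ q + 1 := by rw [hq]; exact not_dvd_pow_add_one hp (by omega)
  apply pow_dvd_of_mul hp _ hq1
  apply pow_dvd_of_mul hp _ (not_dvd_of_dvd hq1 (Nat.gcd_dvd_right m _))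
  rw [h, pow_mul, hq]
  exact dvd_mul_right _ _

theorem not_dvd_four (hp : p.Prime) (hp2 : p ≠ 2) (N : ℕ) : ¬ p ∣ Nat.gcd 4 N := by
  intro h
  have h1 : p ∣ 2 ^ 2 := h.trans ((Nat.gcd_dvd_left 4 N).trans (by norm_num))
  exact hp2 ((Nat.prime_dvd_prime_iff_eq hp Nat.prime_two).1 (hp.dvd_of_dvd_pow h1))

theorem pow_dvd_plus (hp : p.Prime) (hp2 : p ≠ 2) {f l : ℕ} (hK : Fintype.card K = p ^ f) (hl : 4 ≤ l) :
    p ^ (f * (l * (l - 1))) ∣ Nat.card (Cfsg.POmega K (Cfsg.quadFormPlus l K)) := by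
  have h := Cfsg.Agent.S0293.result hK l hl
  refine pow_dvd_of_mul (a := Nat.gcd 4 ((p ^ f) ^ l - 1)) hp ?_ (not_dvd_four hp hp2 _)
  rw [h, pow_mul, mul_assoc]
  exact dvd_mul_right _ _

theorem pow_dvd_minus (hp : p.Prime) (hp2 : p ≠ 2) {f l : ℕ} (hK : Fintype.card K = p ^ f) (hl : 4 ≤ l) (a b : K)
    (hab : ∀ z₁ z₂ : K, z₁ ^ 2 + a * z₁ * z₂ + b * z₂ ^ 2 = 0 → z₁ = 0 ∧ z₂ = 0) :
    p ^ (f * (l * (l - 1))) ∣ Nat.card (Cfsg.POmega K (Cfsg.quadFormMinus (l - 1) K a b)) := by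
  have h := Cfsg.Agent.S0294.result hK l hl a b hab
  refine pow_dvd_of_mul (a := Nat.gcd 4 ((p ^ f) ^ l + 1)) hp ?_ (not_dvd_four hp hp2 _)
  rw [h, pow_mul, mul_assoc]
  exact dvd_mul_right _ _

/-! ### A perfect subgroup of index at most 2 -/

theorem eq_of_card {G : Type*} [Group G] {P S : Subgroup G} [Finite S] (hle : P ≤ S) (hS : ⁅S, S⁆ = S)
    (hc : Nat.card S ≤ 2 * Nat.card P) : P = S := by
  have h1 : Nat.card (P.subgroupOf S) = Nat.card P := Nat.card_congr (Subgroup.subgroupOfEquivOfLe hle).toEquiv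
  have h2 := Subgroup.card_mul_index (P.subgroupOf S)
  rw [h1] at h2
  have : Finite P := Finite.of_injective (Subgroup.inclusion hle) (Subgroup.inclusion_injective _)
  have hpos : 0 < Nat.card P := Nat.card_pos
  have h3 : (P.subgroupOf S).index ≤ 2 := by
    by_contra hlt
    push Not at hlt
    have : Nat.card P * 3 ≤ Nat.card P * (P.subgroupOf S).index := Nat.mul_le_mul_left _ hlt
    omega
  have h0 : (P.subgroupOf S).index ≠ 0 := by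
    intro h0
    rw [h0, mul_zero] at h2
    exact (Nat.card_pos (α := S)).ne h2
  have h4 : (P.subgroupOf S).index = 1 ∨ (P.subgroupOf S).index = 2 := by omega
  rcases h4 with h4 | h4
  · rw [Subgroup.index_eq_one, Subgroup.subgroupOf_eq_top] at h4
    exact le_antisymm hle h4
  · refine le_antisymm hle ?_
    rw [← hS, Subgroup.commutator_le]
    intro a ha b hb
    have h5 : ((⟨a, ha⟩ : S) * ⟨b, hb⟩ * (⟨a, ha⟩ : S)⁻¹ * (⟨b, hb⟩ : S)⁻¹) ∈ P.subgroupOf S := by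
      rw [Subgroup.mul_mem_iff_of_index_two h4, Subgroup.mul_mem_iff_of_index_two h4,
        Subgroup.mul_mem_iff_of_index_two h4, Subgroup.inv_mem_iff, Subgroup.inv_mem_iff]
      tauto
    rw [commutatorElement_def]
    exact Subgroup.mem_subgroupOf.1 h5

theorem card_facts {G : Type*} [Group G] {P S Z : Subgroup G} [(Z.subgroupOf P).Normal] [Finite S] (hle : P ≤ S)
    (hZ : 4 ∣ Nat.card (Z.subgroupOf P)) {T : Type*} [Group T] (e : Nonempty ((P ⧸ Z.subgroupOf P) ≃* T)) :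
    4 * Nat.card T ∣ Nat.card S ∧ 4 * Nat.card T ≤ Nat.card P := by
  obtain ⟨e⟩ := e
  have h1 := Subgroup.card_eq_card_quotient_mul_card_subgroup (Z.subgroupOf P)
  rw [Nat.card_congr e.toEquiv] at h1
  have : Finite P := Finite.of_injective (Subgroup.inclusion hle) (Subgroup.inclusion_injective _)
  have h2 : 4 * Nat.card T ∣ Nat.card P := by
    rw [h1, mul_comm]
    exact Nat.mul_dvd_mul_left _ hZ
  refine ⟨h2.trans (Subgroup.card_dvd_of_le hle), Nat.le_of_dvd Nat.card_pos h2⟩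

theorem exp_cases {p N : ℕ} (hN : ¬ p ^ 29 ∣ N) {f m : ℕ} (hf : 1 ≤ f) (hm : 8 ≤ m)
    (h : p ^ (f * (m * (m - 1) / 2)) ∣ N) : f = 1 ∧ m = 8 := by
  have h1 : f * (m * (m - 1) / 2) < 29 := by
    by_contra hlt
    push Not at hlt
    exact hN ((pow_dvd_pow p hlt).trans h)
  have hm8 : m = 8 := by
    by_contra hne
    have h9 : 9 ≤ m := by omega
    have h2 : 9 * 8 ≤ m * (m - 1) := Nat.mul_le_mul h9 (by omega)
    have h3 : 36 ≤ m * (m - 1) / 2 := by omega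
    have h4 : 1 * 36 ≤ f * (m * (m - 1) / 2) := Nat.mul_le_mul hf h3
    omega
  subst hm8
  refine ⟨?_, rfl⟩
  have h5 : 8 * (8 - 1) / 2 = 28 := by norm_num
  rw [h5] at h1
  omega

theorem exp_false {p N : ℕ} (hN : ¬ p ^ 29 ∣ N) {f l : ℕ} (hf : 1 ≤ f) (hl : 7 ≤ l)
    (h : p ^ (f * (l * (l - 1))) ∣ N) : False := by
  apply hN
  refine (pow_dvd_pow p ?_).trans h
  have h2 : 7 * 6 ≤ l * (l - 1) := Nat.mul_le_mul hl (by omega)
  have h4 : 1 * 42 ≤ f * (l * (l - 1)) := Nat.mul_le_mul hf h2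
  omega

/-- if `q ^ 2` is a power of the prime `p` then so is `q` -/
theorem exists_pow_of_sq {p q f : ℕ} (hp : p.Prime) (h : p ^ f = q ^ 2) (hf : 1 ≤ f) : ∃ b, 1 ≤ b ∧ q = p ^ b := by
  have h1 : q ∣ p ^ f := by rw [h, pow_two]; exact dvd_mul_right _ _
  obtain ⟨b, -, hb⟩ := (Nat.dvd_prime_pow hp).1 h1
  refine ⟨b, ?_, hb⟩
  by_contra hb0
  have : b = 0 := by omega
  subst this
  rw [pow_zero] at hb
  rw [hb, one_pow] at h
  exact (Nat.one_lt_pow (by omega) hp.one_lt).ne' h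

theorem gcd_eight_le (N : ℕ) : Nat.gcd 8 N ≤ 8 := Nat.le_of_dvd (by norm_num) (Nat.gcd_dvd_left 8 N)

theorem gcd_eight_two {N : ℕ} (h2 : N % 4 = 2) : Nat.gcd 8 N = 2 := by
  have h1 : Nat.gcd 8 N ∣ 8 := Nat.gcd_dvd_left 8 N
  have h3 : Nat.gcd 8 N ∣ N := Nat.gcd_dvd_right 8 N
  have h4 : Nat.gcd 8 N ≤ 8 := gcd_eight_le N
  have h5 : 2 ∣ Nat.gcd 8 N := Nat.dvd_gcd (by norm_num) (by omega)
  have h6 : ¬ 4 ∣ Nat.gcd 8 N := fun h => by
    have := h.trans h3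
    omega
  have h7 : 0 < Nat.gcd 8 N := Nat.gcd_pos_of_pos_left _ (by norm_num)
  generalize Nat.gcd 8 N = d at *
  interval_cases d <;> omega

section Linear

variable {F : Type*} [Field F] [Fintype F] {P : Subgroup (Matrix.GeneralLinearGroup (Fin 8) F)}

/-- (L1) -/
theorem lin_psl [CharP K p] (hp : p.Prime) (hF : Fintype.card F = p)
    (hle : P ≤ specialLinear (Fin 8) F) (hZ : 4 ∣ Nat.card ((scalars (Fin 8) F).subgroupOf P)) {m : ℕ} (hm : 8 ≤ m)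
    (e : Nonempty ((P ⧸ (scalars (Fin 8) F).subgroupOf P) ≃* Matrix.ProjectiveSpecialLinearGroup (Fin m) K)) :
    P = specialLinear (Fin 8) F := by
  obtain ⟨f, hf, hK⟩ := exists_card_eq (K := K) hp
  obtain ⟨h1, h2⟩ := card_facts hle hZ e
  obtain ⟨rfl, rfl⟩ := exp_cases (not_dvd_sl hp hF) hf hm
    ((pow_dvd_psl hp hf hK (by omega)).trans ((dvd_mul_left _ 4).trans h1))
  rw [pow_one] at hK
  refine eq_of_card hle (Cfsg.Agent.H908.perfect_specialLinear (by simp)) ?_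
  rw [card_sl_eight hp hF, ← card_psl_eight hp hK]
  have h3 : Nat.gcd 8 (p - 1) * Nat.card (Matrix.ProjectiveSpecialLinearGroup (Fin 8) K) ≤
      8 * Nat.card (Matrix.ProjectiveSpecialLinearGroup (Fin 8) K) := Nat.mul_le_mul_right _ (gcd_eight_le _)
  omega

/-- (L2) -/
theorem lin_psu [CharP K p] (hp : p.Prime) (hF : Fintype.card F = p) (h4 : p % 4 = 1)
    (hle : P ≤ specialLinear (Fin 8) F) (hZ : 4 ∣ Nat.card ((scalars (Fin 8) F).subgroupOf P)) {m q' : ℕ}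
    (hm : 8 ≤ m) (hq' : Fintype.card K = q' ^ 2)
    (e : Nonempty ((P ⧸ (scalars (Fin 8) F).subgroupOf P) ≃* Cfsg.PSU m K q')) : False := by
  obtain ⟨f, hf, hK⟩ := exists_card_eq (K := K) hp
  obtain ⟨b, hb, hb'⟩ := exists_pow_of_sq hp (hK.symm.trans hq') hf
  obtain ⟨h1, h2⟩ := card_facts hle hZ e
  obtain ⟨rfl, rfl⟩ := exp_cases (not_dvd_sl hp hF) hb hm
    ((pow_dvd_psu hp hb hb' hq' (by omega)).trans ((dvd_mul_left _ 4).trans h1))
  rw [pow_one] at hb'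
  subst hb'
  have h3 := card_psu_eight hq'
  rw [gcd_eight_two (N := q' + 1) (by omega)] at h3
  have h5 := card_sl_eight hp hF
  have h6 : 4 * Nat.card (Cfsg.PSU 8 K q') ≤ Nat.card (specialLinear (Fin 8) F) := Nat.le_of_dvd Nat.card_pos h1
  have h7 : 4 * Nat.card (Cfsg.PSU 8 K q') = 2 * (2 * Nat.card (Cfsg.PSU 8 K q')) := by ring
  rw [h7, h3, h5] at h6
  have hpow : 0 < q' ^ 28 := pow_pos hp.pos 28
  have h8 : q' ^ 28 * (2 * ((q' ^ 2 - 1) * (q' ^ 3 + 1) * (q' ^ 4 - 1) * (q' ^ 5 + 1) * (q' ^ 6 - 1) *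
      (q' ^ 7 + 1) * (q' ^ 8 - 1))) ≤ q' ^ 28 * ((q' ^ 2 - 1) * (q' ^ 3 - 1) * (q' ^ 4 - 1) * (q' ^ 5 - 1) * (q' ^ 6 - 1) *
      (q' ^ 7 - 1) * (q' ^ 8 - 1)) := by
    refine le_trans (le_of_eq ?_) h6
    ring
  have h9 := Nat.le_of_mul_le_mul_left h8 hpow
  have h10 : (q' ^ 2 - 1) * (q' ^ 3 - 1) * (q' ^ 4 - 1) * (q' ^ 5 - 1) * (q' ^ 6 - 1) *
      (q' ^ 7 - 1) * (q' ^ 8 - 1) ≤ (q' ^ 2 - 1) * (q' ^ 3 + 1) * (q' ^ 4 - 1) * (q' ^ 5 + 1) * (q' ^ 6 - 1) *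
      (q' ^ 7 + 1) * (q' ^ 8 - 1) := by
    gcongr <;> omega
  have hpos : ∀ j, 1 ≤ j → 0 < q' ^ j - 1 := fun j hj => Nat.sub_pos_of_lt (Nat.one_lt_pow (by omega) hp.one_lt)
  have h11 : 0 < (q' ^ 2 - 1) * (q' ^ 3 - 1) * (q' ^ 4 - 1) * (q' ^ 5 - 1) * (q' ^ 6 - 1) *
      (q' ^ 7 - 1) * (q' ^ 8 - 1) := by
    have := hpos 2 (by norm_num)
    have := hpos 3 (by norm_num)
    have := hpos 4 (by norm_num)
    have := hpos 5 (by norm_num)
    have := hpos 6 (by norm_num)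
    have := hpos 7 (by norm_num)
    have := hpos 8 (by norm_num)
    positivity
  omega

/-- (L3) -/
theorem lin_plus [CharP K p] (hp : p.Prime) (hF : Fintype.card F = p) (h4 : p % 4 = 1)
    (hle : P ≤ specialLinear (Fin 8) F) (hZ : 4 ∣ Nat.card ((scalars (Fin 8) F).subgroupOf P)) {l : ℕ}
    (hl : 7 ≤ l) (e : Nonempty ((P ⧸ (scalars (Fin 8) F).subgroupOf P) ≃* Cfsg.POmega K (Cfsg.quadFormPlus l K))) :
    False := by
  obtain ⟨f, hf, hK⟩ := exists_card_eq (K := K) hp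
  obtain ⟨h1, h2⟩ := card_facts hle hZ e
  exact exp_false (not_dvd_sl hp hF) hf hl
    ((pow_dvd_plus hp (by omega) hK (by omega)).trans ((dvd_mul_left _ 4).trans h1))

/-- (L4) -/
theorem lin_minus [CharP K p] (hp : p.Prime) (hF : Fintype.card F = p) (h4 : p % 4 = 1)
    (hle : P ≤ specialLinear (Fin 8) F) (hZ : 4 ∣ Nat.card ((scalars (Fin 8) F).subgroupOf P)) {l : ℕ}
    (hl : 7 ≤ l) {a b : K} (hab : ∀ z₁ z₂ : K, z₁ ^ 2 + a * z₁ * z₂ + b * z₂ ^ 2 = 0 → z₁ = 0 ∧ z₂ = 0)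
    (e : Nonempty ((P ⧸ (scalars (Fin 8) F).subgroupOf P) ≃* Cfsg.POmega K (Cfsg.quadFormMinus (l - 1) K a b))) :
    False := by
  obtain ⟨f, hf, hK⟩ := exists_card_eq (K := K) hp
  obtain ⟨h1, h2⟩ := card_facts hle hZ e
  exact exp_false (not_dvd_sl hp hF) hf hl
    ((pow_dvd_minus hp (by omega) hK (by omega) a b hab).trans ((dvd_mul_left _ 4).trans h1))

end Linear

section Unitary

variable {F : Type*} [Field F] [Fintype F] {P : Subgroup (Matrix.GeneralLinearGroup (Fin 8) F)}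

/-- (U1) -/
theorem uni_psl [CharP K p] (hp : p.Prime) (hF : Fintype.card F = p ^ 2) (h4 : p % 4 = 3)
    (hle : P ≤ Cfsg.GU 8 F p ⊓ specialLinear (Fin 8) F) (hZ : 4 ∣ Nat.card ((scalars (Fin 8) F).subgroupOf P)) {m : ℕ}
    (hm : 8 ≤ m)
    (e : Nonempty ((P ⧸ (scalars (Fin 8) F).subgroupOf P) ≃* Matrix.ProjectiveSpecialLinearGroup (Fin m) K)) :
    False := by
  obtain ⟨f, hf, hK⟩ := exists_card_eq (K := K) hp
  obtain ⟨h1, h2⟩ := card_facts hle hZ e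
  obtain ⟨rfl, rfl⟩ := exp_cases (not_dvd_su hp hF) hf hm
    ((pow_dvd_psl hp hf hK (by omega)).trans ((dvd_mul_left _ 4).trans h1))
  rw [pow_one] at hK
  have h3 := card_psl_eight hp hK
  have hp3 : 3 ≤ p := by omega
  rw [gcd_eight_two (N := p - 1) (by omega)] at h3
  have h5 := card_su_eight hF
  have h6 : 4 * Nat.card (Matrix.ProjectiveSpecialLinearGroup (Fin 8) K) ≤ Nat.card (SUg 8 F p) :=
    Nat.le_of_dvd Nat.card_pos h1
  have h7 : 4 * Nat.card (Matrix.ProjectiveSpecialLinearGroup (Fin 8) K) =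
      2 * (2 * Nat.card (Matrix.ProjectiveSpecialLinearGroup (Fin 8) K)) := by ring
  rw [h7, h3, h5] at h6
  have hpow : 0 < p ^ 28 := pow_pos hp.pos 28
  have hpos : ∀ j, 1 ≤ j → 0 < p ^ j - 1 := fun j hj => Nat.sub_pos_of_lt (Nat.one_lt_pow (by omega) hp.one_lt)
  have hbig : ∀ j, 3 ≤ j → 5 * (p ^ j + 1) ≤ 6 * (p ^ j - 1) := by
    intro j hj
    have h8 : 3 ^ 3 ≤ p ^ j := (Nat.pow_le_pow_right (by norm_num) hj).trans (Nat.pow_le_pow_left hp3 j)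
    omega
  have h8 : p ^ 28 * (2 * ((p ^ 2 - 1) * (p ^ 3 - 1) * (p ^ 4 - 1) * (p ^ 5 - 1) * (p ^ 6 - 1) *
      (p ^ 7 - 1) * (p ^ 8 - 1))) ≤ p ^ 28 * ((p ^ 2 - 1) * (p ^ 3 + 1) * (p ^ 4 - 1) * (p ^ 5 + 1) * (p ^ 6 - 1) *
      (p ^ 7 + 1) * (p ^ 8 - 1)) := by
    refine le_trans (le_of_eq ?_) h6
    ring
  have h9 := Nat.le_of_mul_le_mul_left h8 hpow
  have h10 : (p ^ 2 - 1) * (5 * (p ^ 3 + 1)) * (p ^ 4 - 1) * (5 * (p ^ 5 + 1)) * (p ^ 6 - 1) *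
      (5 * (p ^ 7 + 1)) * (p ^ 8 - 1) ≤ (p ^ 2 - 1) * (6 * (p ^ 3 - 1)) * (p ^ 4 - 1) * (6 * (p ^ 5 - 1)) * (p ^ 6 - 1) *
      (6 * (p ^ 7 - 1)) * (p ^ 8 - 1) := by
    have i3 := hbig 3 (by norm_num)
    have i5 := hbig 5 (by norm_num)
    have i7 := hbig 7 (by norm_num)
    gcongr
  have h11 : 0 < (p ^ 2 - 1) * (p ^ 3 - 1) * (p ^ 4 - 1) * (p ^ 5 - 1) * (p ^ 6 - 1) *
      (p ^ 7 - 1) * (p ^ 8 - 1) := by
    have := hpos 2 (by norm_num)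
    have := hpos 3 (by norm_num)
    have := hpos 4 (by norm_num)
    have := hpos 5 (by norm_num)
    have := hpos 6 (by norm_num)
    have := hpos 7 (by norm_num)
    have := hpos 8 (by norm_num)
    positivity
  have h12 : (p ^ 2 - 1) * (5 * (p ^ 3 + 1)) * (p ^ 4 - 1) * (5 * (p ^ 5 + 1)) * (p ^ 6 - 1) *
      (5 * (p ^ 7 + 1)) * (p ^ 8 - 1) = 125 * ((p ^ 2 - 1) * (p ^ 3 + 1) * (p ^ 4 - 1) * (p ^ 5 + 1) * (p ^ 6 - 1) *
      (p ^ 7 + 1) * (p ^ 8 - 1)) := by ring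
  have h13 : (p ^ 2 - 1) * (6 * (p ^ 3 - 1)) * (p ^ 4 - 1) * (6 * (p ^ 5 - 1)) * (p ^ 6 - 1) *
      (6 * (p ^ 7 - 1)) * (p ^ 8 - 1) = 216 * ((p ^ 2 - 1) * (p ^ 3 - 1) * (p ^ 4 - 1) * (p ^ 5 - 1) * (p ^ 6 - 1) *
      (p ^ 7 - 1) * (p ^ 8 - 1)) := by ring
  rw [h12, h13] at h10
  omega

/-- (U2) -/
theorem uni_psu [CharP K p] (hp : p.Prime) (hF : Fintype.card F = p ^ 2)
    (hle : P ≤ Cfsg.GU 8 F p ⊓ specialLinear (Fin 8) F) (hZ : 4 ∣ Nat.card ((scalars (Fin 8) F).subgroupOf P))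
    {m q' : ℕ} (hm : 8 ≤ m) (hq' : Fintype.card K = q' ^ 2)
    (e : Nonempty ((P ⧸ (scalars (Fin 8) F).subgroupOf P) ≃* Cfsg.PSU m K q')) :
    P = Cfsg.GU 8 F p ⊓ specialLinear (Fin 8) F := by
  obtain ⟨f, hf, hK⟩ := exists_card_eq (K := K) hp
  obtain ⟨b, hb, hb'⟩ := exists_pow_of_sq hp (hK.symm.trans hq') hf
  obtain ⟨h1, h2⟩ := card_facts hle hZ e
  obtain ⟨rfl, rfl⟩ := exp_cases (not_dvd_su hp hF) hb hm
    ((pow_dvd_psu hp hb hb' hq' (by omega)).trans ((dvd_mul_left _ 4).trans h1))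
  rw [pow_one] at hb'
  subst hb'
  have h3 := card_psu_eight hq'
  refine eq_of_card hle (SUg_perfect hF (by norm_num) (by omega)) ?_
  have h5 : Nat.card (SUg 8 F q') = _ := card_su_eight hF
  change Nat.card (SUg 8 F q') ≤ _
  rw [h5, ← h3]
  have h6 : Nat.gcd 8 (q' + 1) * Nat.card (Cfsg.PSU 8 K q') ≤
      8 * Nat.card (Cfsg.PSU 8 K q') := Nat.mul_le_mul_right _ (gcd_eight_le _)
  omega

/-- (U3) -/
theorem uni_plus [CharP K p] (hp : p.Prime) (hF : Fintype.card F = p ^ 2) (h4 : p % 4 = 3)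
    (hle : P ≤ Cfsg.GU 8 F p ⊓ specialLinear (Fin 8) F) (hZ : 4 ∣ Nat.card ((scalars (Fin 8) F).subgroupOf P)) {l : ℕ}
    (hl : 7 ≤ l) (e : Nonempty ((P ⧸ (scalars (Fin 8) F).subgroupOf P) ≃* Cfsg.POmega K (Cfsg.quadFormPlus l K))) :
    False := by
  obtain ⟨f, hf, hK⟩ := exists_card_eq (K := K) hp
  obtain ⟨h1, h2⟩ := card_facts hle hZ e
  exact exp_false (not_dvd_su hp hF) hf hl
    ((pow_dvd_plus hp (by omega) hK (by omega)).trans ((dvd_mul_left _ 4).trans h1))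

/-- (U4) -/
theorem uni_minus [CharP K p] (hp : p.Prime) (hF : Fintype.card F = p ^ 2) (h4 : p % 4 = 3)
    (hle : P ≤ Cfsg.GU 8 F p ⊓ specialLinear (Fin 8) F) (hZ : 4 ∣ Nat.card ((scalars (Fin 8) F).subgroupOf P)) {l : ℕ}
    (hl : 7 ≤ l) {a b : K} (hab : ∀ z₁ z₂ : K, z₁ ^ 2 + a * z₁ * z₂ + b * z₂ ^ 2 = 0 → z₁ = 0 ∧ z₂ = 0)
    (e : Nonempty ((P ⧸ (scalars (Fin 8) F).subgroupOf P) ≃* Cfsg.POmega K (Cfsg.quadFormMinus (l - 1) K a b))) :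
    False := by
  obtain ⟨f, hf, hK⟩ := exists_card_eq (K := K) hp
  obtain ⟨h1, h2⟩ := card_facts hle hZ e
  exact exp_false (not_dvd_su hp hF) hf hl
    ((pow_dvd_minus hp (by omega) hK (by omega) a b hab).trans ((dvd_mul_left _ 4).trans h1))

end Unitary

end Cfsg.Agent.H918.Order8
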