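import Mathlib
import Cfsg.Agent.H918.URed
import Cfsg.Agent.H918.UProper

/-!
# Overgroups of the stabiliser of a pair of totally isotropic subspaces in `SU_n(q)`: basics

Siegel elements `x ↦ x + h(x, b) a - h(x, a) b`, transvections, subspace bookkeeping.
-/

set_option autoImplicit false
set_option linter.unusedSectionVars false

namespace Cfsg.Agent.H918.Pair

open Cfsg Cfsg.Agent.LieClassical.HermBasic Cfsg.Agent.H918
open scoped Matrix MatrixGroups

variable {F : Type*} [Field F] {n q : ℕ}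

/-- `X` contains the Siegel element of `a`, `b`. -/
def HasS (q : ℕ) (X : Subgroup (Matrix.GeneralLinearGroup (Fin n) F)) (a b : Fin n → F) : Prop :=
  ∃ g ∈ X, ∀ x : Fin n → F, (g : Matrix (Fin n) (Fin n) F) *ᵥ x =
    x + hermForm n F q x b • a - hermForm n F q x a • b

/-- `X` contains the transvection with centre `v` and parameter `c`. -/
def HasT (q : ℕ) (X : Subgroup (Matrix.GeneralLinearGroup (Fin n) F)) (v : Fin n → F) (c : F) : Prop :=
  ∃ g ∈ X, ∀ x : Fin n → F, (g : Matrix (Fin n) (Fin n) F) *ᵥ x =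
    x + (c * hermForm n F q x v) • v

/-- Image of a subspace under a matrix. -/
def gm (g : Matrix.GeneralLinearGroup (Fin n) F) (A : Submodule F (Fin n → F)) :
    Submodule F (Fin n → F) := A.map (Matrix.toLin' (g : Matrix (Fin n) (Fin n) F))

theorem inv_mulVec_mulVec (g : Matrix.GeneralLinearGroup (Fin n) F) (x : Fin n → F) :
    ((g⁻¹ : Matrix.GeneralLinearGroup (Fin n) F) : Matrix (Fin n) (Fin n) F) *ᵥ
      ((g : Matrix (Fin n) (Fin n) F) *ᵥ x) = x := by
  rw [Matrix.mulVec_mulVec, ← Units.val_mul, inv_mul_cancel, Units.val_one, Matrix.one_mulVec]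

theorem mulVec_inv_mulVec (g : Matrix.GeneralLinearGroup (Fin n) F) (x : Fin n → F) :
    (g : Matrix (Fin n) (Fin n) F) *ᵥ
      (((g⁻¹ : Matrix.GeneralLinearGroup (Fin n) F) : Matrix (Fin n) (Fin n) F) *ᵥ x) = x := by
  rw [Matrix.mulVec_mulVec, ← Units.val_mul, mul_inv_cancel, Units.val_one, Matrix.one_mulVec]

theorem mul_mulVec (g h : Matrix.GeneralLinearGroup (Fin n) F) (x : Fin n → F) :
    ((g * h : Matrix.GeneralLinearGroup (Fin n) F) : Matrix (Fin n) (Fin n) F) *ᵥ x =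
      (g : Matrix (Fin n) (Fin n) F) *ᵥ ((h : Matrix (Fin n) (Fin n) F) *ᵥ x) := by
  rw [Matrix.mulVec_mulVec, ← Units.val_mul]

theorem mulVec_inj (g : Matrix.GeneralLinearGroup (Fin n) F) {x y : Fin n → F}
    (h : (g : Matrix (Fin n) (Fin n) F) *ᵥ x = (g : Matrix (Fin n) (Fin n) F) *ᵥ y) : x = y := by
  rw [← inv_mulVec_mulVec g x, h, inv_mulVec_mulVec]

theorem mem_gm {g : Matrix.GeneralLinearGroup (Fin n) F} {A : Submodule F (Fin n → F)}
    {x : Fin n → F} : x ∈ gm g A ↔ ∃ y ∈ A, (g : Matrix (Fin n) (Fin n) F) *ᵥ y = x := by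
  rw [gm, Submodule.mem_map]
  simp only [Matrix.toLin'_apply]

theorem mulVec_mem_gm {g : Matrix.GeneralLinearGroup (Fin n) F} {A : Submodule F (Fin n → F)}
    {x : Fin n → F} (hx : x ∈ A) : (g : Matrix (Fin n) (Fin n) F) *ᵥ x ∈ gm g A :=
  mem_gm.2 ⟨x, hx, rfl⟩

theorem mulVec_mem_gm_iff {g : Matrix.GeneralLinearGroup (Fin n) F} {A : Submodule F (Fin n → F)}
    {x : Fin n → F} : (g : Matrix (Fin n) (Fin n) F) *ᵥ x ∈ gm g A ↔ x ∈ A := by
  constructor
  · intro h
    obtain ⟨y, hy, hyx⟩ := mem_gm.1 h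
    rwa [← mulVec_inj g hyx]
  · exact mulVec_mem_gm

theorem gm_mul (g h : Matrix.GeneralLinearGroup (Fin n) F) (A : Submodule F (Fin n → F)) :
    gm (g * h) A = gm g (gm h A) := by
  ext x
  constructor
  · intro hx
    obtain ⟨y, hy, rfl⟩ := mem_gm.1 hx
    rw [mul_mulVec]
    exact mulVec_mem_gm (mulVec_mem_gm hy)
  · intro hx
    obtain ⟨y, hy, rfl⟩ := mem_gm.1 hx
    obtain ⟨z, hz, rfl⟩ := mem_gm.1 hy
    rw [← mul_mulVec]
    exact mulVec_mem_gm hz

theorem gm_one (A : Submodule F (Fin n → F)) : gm 1 A = A := by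
  ext x
  rw [mem_gm]
  constructor
  · rintro ⟨y, hy, rfl⟩
    simpa using hy
  · intro hx
    exact ⟨x, hx, by simp⟩

theorem gm_inv_gm (g : Matrix.GeneralLinearGroup (Fin n) F) (A : Submodule F (Fin n → F)) :
    gm g⁻¹ (gm g A) = A := by
  rw [← gm_mul, inv_mul_cancel, gm_one]

theorem gm_gm_inv (g : Matrix.GeneralLinearGroup (Fin n) F) (A : Submodule F (Fin n → F)) :
    gm g (gm g⁻¹ A) = A := by
  rw [← gm_mul, mul_inv_cancel, gm_one]

theorem gm_injective (g : Matrix.GeneralLinearGroup (Fin n) F) {A B : Submodule F (Fin n → F)}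
    (h : gm g A = gm g B) : A = B := by
  rw [← gm_inv_gm g A, h, gm_inv_gm]

theorem gm_mono (g : Matrix.GeneralLinearGroup (Fin n) F) {A B : Submodule F (Fin n → F)}
    (h : A ≤ B) : gm g A ≤ gm g B := Submodule.map_mono h

theorem finrank_gm (g : Matrix.GeneralLinearGroup (Fin n) F) (A : Submodule F (Fin n → F)) :
    Module.finrank F (gm g A) = Module.finrank F A := by
  apply le_antisymm
  · exact Submodule.finrank_map_le _ _
  · have h := Submodule.finrank_map_le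
      (Matrix.toLin' ((g⁻¹ : Matrix.GeneralLinearGroup (Fin n) F) : Matrix (Fin n) (Fin n) F)) (gm g A)
    have h2 : (gm g A).map (Matrix.toLin'
        ((g⁻¹ : Matrix.GeneralLinearGroup (Fin n) F) : Matrix (Fin n) (Fin n) F)) = A :=
      gm_inv_gm g A
    rwa [h2] at h

theorem gm_sup (g : Matrix.GeneralLinearGroup (Fin n) F) (A B : Submodule F (Fin n → F)) :
    gm g (A ⊔ B) = gm g A ⊔ gm g B := Submodule.map_sup _ _ _

theorem gm_inf (g : Matrix.GeneralLinearGroup (Fin n) F) (A B : Submodule F (Fin n → F)) :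
    gm g (A ⊓ B) = gm g A ⊓ gm g B := by
  apply le_antisymm
  · exact le_inf (gm_mono g inf_le_left) (gm_mono g inf_le_right)
  · intro x hx
    obtain ⟨h1, h2⟩ := Submodule.mem_inf.1 hx
    obtain ⟨y, hy, rfl⟩ := mem_gm.1 h1
    exact mulVec_mem_gm (Submodule.mem_inf.2 ⟨hy, mulVec_mem_gm_iff.1 h2⟩)

theorem gm_top (g : Matrix.GeneralLinearGroup (Fin n) F) :
    gm g (⊤ : Submodule F (Fin n → F)) = ⊤ := by
  rw [eq_top_iff]
  intro x _
  exact mem_gm.2 ⟨_, Submodule.mem_top, mulVec_inv_mulVec g x⟩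

theorem gm_bot (g : Matrix.GeneralLinearGroup (Fin n) F) :
    gm g (⊥ : Submodule F (Fin n → F)) = ⊥ := Submodule.map_bot _

/-- An element mapping `A` into `A` maps `A` onto `A`. -/
theorem gm_eq_of_mulVec_mem {g : Matrix.GeneralLinearGroup (Fin n) F}
    {A : Submodule F (Fin n → F)} (h : ∀ x ∈ A, (g : Matrix (Fin n) (Fin n) F) *ᵥ x ∈ A) :
    gm g A = A := by
  apply Submodule.eq_of_le_of_finrank_eq
  · intro x hx
    obtain ⟨y, hy, rfl⟩ := mem_gm.1 hx
    exact h y hy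
  · exact finrank_gm g A

section

variable [Fintype F] (hF : Fintype.card F = q ^ 2)
include hF

theorem HasT.tv_mem {X : Subgroup (Matrix.GeneralLinearGroup (Fin n) F)} {v : Fin n → F} {c : F}
    (h : HasT q X v c) (hv : hermForm n F q v v = 0) (hc : c + c ^ q = 0) : tv hF v c hv hc ∈ X := by
  obtain ⟨g, hg, hx⟩ := h
  have : tv hF v c hv hc = g := by
    apply Units.ext
    apply Matrix.mulVec_injective
    funext x
    rw [tv_mulVec, hx]
  rwa [this]

omit hF in
theorem HasT.conj {X : Subgroup (Matrix.GeneralLinearGroup (Fin n) F)} {v : Fin n → F} {c : F}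
    (h : HasT q X v c) {g : Matrix.GeneralLinearGroup (Fin n) F} (hg : g ∈ X)
    (hgu : g ∈ Cfsg.GU n F q) : HasT q X ((g : Matrix (Fin n) (Fin n) F) *ᵥ v) c := by
  obtain ⟨t, ht, hx⟩ := h
  refine ⟨g * t * g⁻¹, X.mul_mem (X.mul_mem hg ht) (X.inv_mem hg), fun x => ?_⟩
  rw [mul_mulVec, mul_mulVec, hx, Matrix.mulVec_add, Matrix.mulVec_smul, mulVec_inv_mulVec]
  have : hermForm n F q x ((g : Matrix (Fin n) (Fin n) F) *ᵥ v) =
      hermForm n F q (((g⁻¹ : Matrix.GeneralLinearGroup (Fin n) F) : Matrix (Fin n) (Fin n) F) *ᵥ x) v := by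
    rw [← mem_GU.1 hgu (((g⁻¹ : Matrix.GeneralLinearGroup (Fin n) F) : Matrix (Fin n) (Fin n) F) *ᵥ x) v,
      mulVec_inv_mulVec]
  rw [this]

omit hF in
theorem HasS.conj {X : Subgroup (Matrix.GeneralLinearGroup (Fin n) F)} {a b : Fin n → F}
    (h : HasS q X a b) {g : Matrix.GeneralLinearGroup (Fin n) F} (hg : g ∈ X)
    (hgu : g ∈ Cfsg.GU n F q) : HasS q X ((g : Matrix (Fin n) (Fin n) F) *ᵥ a)
      ((g : Matrix (Fin n) (Fin n) F) *ᵥ b) := by
  obtain ⟨t, ht, hx⟩ := h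
  refine ⟨g * t * g⁻¹, X.mul_mem (X.mul_mem hg ht) (X.inv_mem hg), fun x => ?_⟩
  rw [mul_mulVec, mul_mulVec, hx, Matrix.mulVec_sub, Matrix.mulVec_add, Matrix.mulVec_smul,
    Matrix.mulVec_smul, mulVec_inv_mulVec]
  have : ∀ v, hermForm n F q x ((g : Matrix (Fin n) (Fin n) F) *ᵥ v) =
      hermForm n F q (((g⁻¹ : Matrix.GeneralLinearGroup (Fin n) F) : Matrix (Fin n) (Fin n) F) *ᵥ x) v := by
    intro v
    rw [← mem_GU.1 hgu (((g⁻¹ : Matrix.GeneralLinearGroup (Fin n) F) : Matrix (Fin n) (Fin n) F) *ᵥ x) v,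
      mulVec_inv_mulVec]
  rw [this, this]

theorem inv_pow_of_trace {c : F} (hc : c + c ^ q = 0) : (c⁻¹) ^ q = -c⁻¹ := by
  have h : c ^ q = -c := by linear_combination hc
  rw [inv_pow, h, inv_neg]

/-- Siegel elements exist in `SU_n(q)`. -/
theorem hasS_SUg {a b : Fin n → F} (haa : hermForm n F q a a = 0) (hbb : hermForm n F q b b = 0)
    (hab : hermForm n F q a b = 0) : HasS q (SUg n F q) a b := by
  obtain ⟨c, hc0, hc⟩ := exists_trace_zero_ne hF
  have hba : hermForm n F q b a = 0 := herm_eq_zero_swap hF hab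
  have hcq : c ^ q = -c := by linear_combination hc
  have hci : (c⁻¹) ^ q = -c⁻¹ := inv_pow_of_trace hF hc
  have h1 : hermForm n F q (a + (-c⁻¹) • b) (a + (-c⁻¹) • b) = 0 := by
    rw [herm_add_left, herm_add_right hF, herm_add_right hF, herm_smul_left, herm_smul_left,
      herm_smul_right, herm_smul_right, haa, hbb, hab, hba]
    ring
  have h2 : (-c) + (-c) ^ q = 0 := by
    rw [neg_pow_q hF, hcq]; ring
  have h3 : c⁻¹ + c⁻¹ ^ q = 0 := by rw [hci]; ring
  refine ⟨tv hF _ c h1 hc * (tv hF a (-c) haa h2 * tv hF b c⁻¹ hbb h3),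
    Subgroup.mul_mem _ (tv_mem hF _ _) (Subgroup.mul_mem _ (tv_mem hF _ _) (tv_mem hF _ _)),
    fun x => ?_⟩
  rw [mul_mulVec, mul_mulVec, tv_mulVec, tv_mulVec, tv_mulVec]
  simp only [herm_add_left, herm_add_right hF, herm_smul_left, herm_smul_right, haa, hbb, hab, hba,
    neg_pow_q hF, hci, mul_zero, add_zero]
  funext i
  simp only [Pi.add_apply, Pi.sub_apply, Pi.smul_apply, smul_eq_mul]
  field_simp
  ring

end

end Cfsg.Agent.H918.Pair
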