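import Mathlib
import Cfsg.Agent.H918.PairBase

/-!
# Overgroups of the stabiliser of a pair of totally isotropic subspaces in `SU_n(q)`: good pairs

`Good q k X A A'`: `A`, `A'` are complementary totally isotropic subspaces of dimension `k` such that `X`
contains all Siegel elements of `a ∈ A`, `b ∈ A'`, `h(a, b) = 0`.
-/

set_option autoImplicit false
set_option linter.unusedSectionVars false

namespace Cfsg.Agent.H918.Pair

open Cfsg Cfsg.Agent.LieClassical.HermBasic Cfsg.Agent.H918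
open scoped Matrix MatrixGroups

variable {F : Type*} [Field F] {n q : ℕ}

/-- Complementary totally isotropic subspaces with all their Siegel elements in `X`. -/
structure Good (q k : ℕ) (X : Subgroup (Matrix.GeneralLinearGroup (Fin n) F))
    (A A' : Submodule F (Fin n → F)) : Prop where
  ti : ∀ x ∈ A, ∀ y ∈ A, hermForm n F q x y = 0
  ti' : ∀ x ∈ A', ∀ y ∈ A', hermForm n F q x y = 0
  sup : A ⊔ A' = ⊤
  inf : A ⊓ A' = ⊥
  rk : Module.finrank F A = k
  rk' : Module.finrank F A' = k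
  sg : ∀ a ∈ A, ∀ b ∈ A', hermForm n F q a b = 0 → HasS q X a b

/-- The linear map `x ↦ h(x, v)`. -/
def hl (q : ℕ) (v : Fin n → F) : (Fin n → F) →ₗ[F] F where
  toFun x := hermForm n F q x v
  map_add' x y := herm_add_left x y v
  map_smul' c x := herm_smul_left c x v

theorem hl_apply (v x : Fin n → F) : hl q v x = hermForm n F q x v := rfl

/-- The vectors orthogonal to `v`. -/
def vp (q : ℕ) (v : Fin n → F) : Submodule F (Fin n → F) := LinearMap.ker (hl q v)

theorem mem_vp {v x : Fin n → F} : x ∈ vp q v ↔ hermForm n F q x v = 0 := LinearMap.mem_ker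

theorem finrank_le_inf_vp (S : Submodule F (Fin n → F)) (v : Fin n → F) :
    Module.finrank F S ≤ Module.finrank F (S ⊓ vp q v : Submodule F (Fin n → F)) + 1 := by
  let φ : S →ₗ[F] F := (hl q v).comp S.subtype
  have h1 := LinearMap.finrank_range_add_finrank_ker φ
  have h2 : Module.finrank F (LinearMap.range φ) ≤ 1 := by
    refine (Submodule.finrank_le _).trans ?_
    rw [Module.finrank_self]
  have h3 : Module.finrank F (LinearMap.ker φ) ≤
      Module.finrank F (S ⊓ vp q v : Submodule F (Fin n → F)) := by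
    have h4 : (LinearMap.ker φ).map S.subtype ≤ S ⊓ vp q v := by
      rintro _ ⟨x, hx, rfl⟩
      refine Submodule.mem_inf.2 ⟨x.2, ?_⟩
      rw [mem_vp]
      exact hx
    rw [← Submodule.finrank_map_subtype_eq]
    exact Submodule.finrank_mono h4
  omega

theorem exists_indep {S : Submodule F (Fin n → F)} (h : 2 ≤ Module.finrank F S) :
    ∃ b ∈ S, b ≠ 0 ∧ ∃ c ∈ S, c ∉ Submodule.span F {b} := by
  have h0 : S ≠ ⊥ := by
    rintro rfl
    rw [finrank_bot] at h
    omega
  obtain ⟨b, hb, hb0⟩ := Submodule.exists_mem_ne_zero_of_ne_bot h0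
  refine ⟨b, hb, hb0, ?_⟩
  by_contra hcon
  push Not at hcon
  have h1 : S ≤ Submodule.span F {b} := hcon
  have h2 := Submodule.finrank_mono h1
  rw [finrank_span_singleton hb0] at h2
  omega

section

variable [Fintype F] (hF : Fintype.card F = q ^ 2)
include hF

variable {k : ℕ} {X : Subgroup (Matrix.GeneralLinearGroup (Fin n) F)}
  {A A' : Submodule F (Fin n → F)}

theorem Good.symm (G : Good q k X A A') : Good q k X A' A := by
  refine ⟨G.ti', G.ti, by rw [sup_comm]; exact G.sup, by rw [inf_comm]; exact G.inf, G.rk', G.rk,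
    fun a ha b hb hab => ?_⟩
  obtain ⟨g, hg, hx⟩ := G.sg b hb (-a) (A'.neg_mem ha) (by
    rw [herm_neg_right hF, herm_eq_zero_swap hF hab, neg_zero])
  refine ⟨g, hg, fun x => ?_⟩
  rw [hx, herm_neg_right hF]
  funext i
  simp only [Pi.add_apply, Pi.sub_apply, Pi.smul_apply, Pi.neg_apply, smul_eq_mul]
  ring

theorem Good.conj (G : Good q k X A A') (hX : X ≤ SUg n F q)
    {g : Matrix.GeneralLinearGroup (Fin n) F} (hg : g ∈ X) : Good q k X (gm g A) (gm g A') := by
  have hgu : g ∈ Cfsg.GU n F q := (Subgroup.mem_inf.1 (hX hg)).1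
  have hiso := mem_GU.1 hgu
  refine ⟨?_, ?_, ?_, ?_, ?_, ?_, ?_⟩
  · intro x hx y hy
    obtain ⟨x', hx', rfl⟩ := mem_gm.1 hx
    obtain ⟨y', hy', rfl⟩ := mem_gm.1 hy
    rw [hiso]
    exact G.ti x' hx' y' hy'
  · intro x hx y hy
    obtain ⟨x', hx', rfl⟩ := mem_gm.1 hx
    obtain ⟨y', hy', rfl⟩ := mem_gm.1 hy
    rw [hiso]
    exact G.ti' x' hx' y' hy'
  · rw [← gm_sup, G.sup, gm_top]
  · rw [← gm_inf, G.inf, gm_bot]
  · rw [finrank_gm, G.rk]
  · rw [finrank_gm, G.rk']
  · intro x hx y hy hxy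
    obtain ⟨x', hx', rfl⟩ := mem_gm.1 hx
    obtain ⟨y', hy', rfl⟩ := mem_gm.1 hy
    rw [hiso] at hxy
    exact (G.sg x' hx' y' hy' hxy).conj hg hgu

omit hF in
theorem Good.decomp (G : Good q k X A A') (x : Fin n → F) : ∃ a ∈ A, ∃ b ∈ A', a + b = x := by
  have : x ∈ A ⊔ A' := by rw [G.sup]; exact Submodule.mem_top
  exact Submodule.mem_sup.1 this

omit hF in
theorem Good.eq_zero (G : Good q k X A A') {x : Fin n → F} (h1 : x ∈ A) (h2 : x ∈ A') : x = 0 := by
  have : x ∈ A ⊓ A' := Submodule.mem_inf.2 ⟨h1, h2⟩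
  rw [G.inf] at this
  exact (Submodule.mem_bot F).1 this

/-- A non-zero vector of `A` is not orthogonal to `A'`. -/
theorem Good.exists_ne (G : Good q k X A A') {a : Fin n → F} (ha : a ∈ A) (ha0 : a ≠ 0) :
    ∃ b ∈ A', hermForm n F q a b ≠ 0 := by
  obtain ⟨v, hv⟩ := exists_herm_ne_zero hF ha0
  obtain ⟨x, hx, y, hy, rfl⟩ := G.decomp v
  refine ⟨y, hy, ?_⟩
  rwa [herm_add_right hF, G.ti a ha x hx, zero_add] at hv

theorem Good.exists_eq_one (G : Good q k X A A') {a : Fin n → F} (ha : a ∈ A) (ha0 : a ≠ 0) :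
    ∃ b ∈ A', hermForm n F q a b = 1 ∧ hermForm n F q b a = 1 := by
  obtain ⟨b, hb, hab⟩ := G.exists_ne hF ha ha0
  refine ⟨((hermForm n F q a b)⁻¹ ^ q) • b, A'.smul_mem _ hb, ?_⟩
  have : hermForm n F q a (((hermForm n F q a b)⁻¹ ^ q) • b) = 1 := by
    rw [herm_smul_right, pow_q_pow_q hF, inv_mul_cancel₀ hab]
  exact ⟨this, by rw [herm_swap hF, this, one_pow]⟩

/-- A vector orthogonal to `A` is in `A`. -/
theorem Good.mem_of_perp (G : Good q k X A A') {x : Fin n → F}
    (h : ∀ a ∈ A, hermForm n F q x a = 0) : x ∈ A := by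
  obtain ⟨a, ha, b, hb, rfl⟩ := G.decomp x
  by_cases hb0 : b = 0
  · rw [hb0, add_zero]; exact ha
  · exfalso
    obtain ⟨c, hc, hbc⟩ := (G.symm hF).exists_ne hF hb hb0
    apply hbc
    have := h c hc
    rwa [herm_add_left, G.ti a ha c hc, zero_add] at this

/-- Separation: if `u` is not a multiple of `a`, some `b ∈ A'` is orthogonal to `a` but not to `u`. -/
theorem Good.exists_sep (G : Good q k X A A') {a u : Fin n → F} (ha : a ∈ A) (hu : u ∈ A)
    (hau : u ∉ Submodule.span F {a}) :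
    ∃ b ∈ A', hermForm n F q a b = 0 ∧ hermForm n F q u b ≠ 0 := by
  by_contra hcon
  push Not at hcon
  by_cases ha0 : a = 0
  · apply hau
    have : u ∈ A' := by
      apply (G.symm hF).mem_of_perp hF
      intro b hb
      exact hcon b hb (by rw [ha0, herm_zero_left])
    rw [G.eq_zero hu this]
    exact Submodule.zero_mem _
  · obtain ⟨b₀, hb₀, hab₀⟩ := G.exists_ne hF ha ha0
    apply hau
    set τ := hermForm n F q u b₀ / hermForm n F q a b₀ with hτ
    have key : ∀ b ∈ A', hermForm n F q (u - τ • a) b = 0 := by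
      intro b hb
      have h1 : hermForm n F q a (b - ((hermForm n F q a b / hermForm n F q a b₀) ^ q) • b₀) = 0 := by
        rw [herm_sub_right hF, herm_smul_right, pow_q_pow_q hF, div_mul_cancel₀ _ hab₀, sub_self]
      have h2 := hcon _ (A'.sub_mem hb (A'.smul_mem _ hb₀)) h1
      rw [herm_sub_right hF, herm_smul_right, pow_q_pow_q hF] at h2
      rw [herm_sub_left, herm_smul_left, hτ]
      rw [div_mul_eq_mul_div] at h2 ⊢
      rw [← h2]
      ring
    have h3 : u - τ • a ∈ A' := (G.symm hF).mem_of_perp hF key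
    have h4 : u - τ • a = 0 := G.eq_zero (A.sub_mem hu (A.smul_mem _ ha)) h3
    rw [sub_eq_zero.1 h4]
    exact Submodule.smul_mem _ _ (Submodule.mem_span_singleton_self a)

end

end Cfsg.Agent.H918.Pair
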