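import Mathlib
import Cfsg.Agent.H918.PairGood

/-!
# Overgroups of the stabiliser of a pair of totally isotropic subspaces: transvections

If `(A, A')` and `(A, A'')` are good pairs with `A' ≠ A''` then `X` contains a transvection with centre in
`A`, hence all of them; if `X` contains all transvections with centre in `A` or `A'`, it contains `SU_n(q)`.
-/

set_option autoImplicit false
set_option linter.unusedSectionVars false

namespace Cfsg.Agent.H918.Pair

open Cfsg Cfsg.Agent.LieClassical.HermBasic Cfsg.Agent.H918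
open scoped Matrix MatrixGroups

variable {F : Type*} [Field F] {n q : ℕ} [Fintype F] (hF : Fintype.card F = q ^ 2)

variable {k : ℕ} {X : Subgroup (Matrix.GeneralLinearGroup (Fin n) F)}
  {A A' A'' : Submodule F (Fin n → F)}

include hF

theorem hasT_smul {v : Fin n → F} {c ν : F} (h : HasT q X (ν • v) c) :
    HasT q X v (c * (ν * ν ^ q)) := by
  obtain ⟨g, hg, hx⟩ := h
  refine ⟨g, hg, fun x => ?_⟩
  rw [hx, herm_smul_right]
  funext i
  simp only [Pi.add_apply, Pi.smul_apply, smul_eq_mul]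
  ring

/-- Two different partners of `A` give a transvection with centre in `A`. -/
theorem exists_hasT (hk : 2 ≤ k) (G₁ : Good q k X A A') (G₂ : Good q k X A A'') (hne : A' ≠ A'') :
    ∃ a ∈ A, a ≠ 0 ∧ ∃ c : F, c ≠ 0 ∧ c + c ^ q = 0 ∧ HasT q X a c := by
  -- a vector `b ∈ A'`, `u ∈ A` with `b + u ∈ A''`, `u ≠ 0`
  obtain ⟨b, hb, u, hu, hbu, hu0⟩ : ∃ b ∈ A', ∃ u ∈ A, b + u ∈ A'' ∧ u ≠ 0 := by
    by_contra hcon
    push Not at hcon
    apply hne
    apply Submodule.eq_of_le_of_finrank_eq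
    · intro b hb
      obtain ⟨a, ha, c, hc, hac⟩ := G₂.decomp b
      have h1 : b + (-a) = c := by rw [← hac]; abel
      have h2 := hcon b hb (-a) (A.neg_mem ha) (by rw [h1]; exact hc)
      rw [h2, add_zero] at h1
      rw [h1]; exact hc
    · rw [G₁.rk', G₂.rk']
  set lam := hermForm n F q b u with hlam
  have hub : hermForm n F q u b = lam ^ q := herm_swap hF _ _
  have htr : lam + lam ^ q = 0 := by
    have h := G₂.ti' _ hbu _ hbu
    rw [herm_add_left, herm_add_right hF, herm_add_right hF, G₁.ti' b hb b hb, G₁.ti u hu u hu, hub,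
      ← hlam] at h
    linear_combination h
  -- the elements `R(a)`
  have hR : ∀ a ∈ A, hermForm n F q a b = 0 → ∃ g ∈ X, ∀ x : Fin n → F,
      (g : Matrix (Fin n) (Fin n) F) *ᵥ x = x + hermForm n F q x u • a - hermForm n F q x a • u +
        (lam * hermForm n F q x a) • a := by
    intro a ha hab
    obtain ⟨g₁, hg₁, hx₁⟩ := G₁.sg a ha (-b) (A'.neg_mem hb) (by rw [herm_neg_right hF, hab, neg_zero])
    obtain ⟨g₂, hg₂, hx₂⟩ := G₂.sg a ha (b + u) hbu (by
      rw [herm_add_right hF, hab, G₁.ti a ha u hu, add_zero])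
    refine ⟨g₂ * g₁, X.mul_mem hg₂ hg₁, fun x => ?_⟩
    rw [mul_mulVec, hx₁, hx₂]
    have hba : hermForm n F q b a = 0 := herm_eq_zero_swap hF hab
    simp only [herm_add_left, herm_sub_left, herm_smul_left, herm_add_right hF, herm_neg_right hF,
      herm_neg_left, hab, hba, G₁.ti a ha a ha, G₁.ti a ha u hu, G₁.ti' b hb b hb, ← hlam]
    funext i
    simp only [Pi.add_apply, Pi.sub_apply, Pi.smul_apply, Pi.neg_apply, smul_eq_mul]
    ring
  by_cases hl0 : lam = 0
  · -- transvection with centre `u`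
    obtain ⟨ν, hν⟩ := exists_not_fixed hF
    obtain ⟨g, hg, hx⟩ := hR (ν • u) (A.smul_mem _ hu) (by
      rw [herm_smul_left, hub, hl0, zero_pow_q hF, mul_zero])
    refine ⟨u, hu, hu0, ν - ν ^ q, sub_ne_zero.2 (Ne.symm hν), ?_, g, hg, fun x => ?_⟩
    · rw [sub_pow_q hF, pow_q_pow_q hF]; ring
    · rw [hx, hl0, herm_smul_right]
      funext i
      simp only [Pi.add_apply, Pi.sub_apply, Pi.smul_apply, smul_eq_mul]
      ring
  · -- some `a ∈ A` orthogonal to `b`
    obtain ⟨a, haA, ha0⟩ : ∃ a ∈ A ⊓ vp q b, a ≠ 0 := by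
      apply Submodule.exists_mem_ne_zero_of_ne_bot
      intro hbot
      have := finrank_le_inf_vp (q := q) A b
      rw [hbot, finrank_bot, G₁.rk] at this
      omega
    obtain ⟨ha, hab⟩ := Submodule.mem_inf.1 haA
    rw [mem_vp] at hab
    obtain ⟨ν, hν⟩ := exists_trace_ne hF
    obtain ⟨g₁, hg₁, hx₁⟩ := hR a ha hab
    obtain ⟨g₂, hg₂, hx₂⟩ := hR (ν • a) (A.smul_mem _ ha) (by rw [herm_smul_left, hab, mul_zero])
    obtain ⟨g₃, hg₃, hx₃⟩ := hR ((1 + ν) • a) (A.smul_mem _ ha) (by rw [herm_smul_left, hab, mul_zero])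
    have hcq : (-(lam * (ν + ν ^ q))) ^ q = lam * (ν + ν ^ q) := by
      rw [neg_pow_q hF, mul_pow, trace_pow_q hF]
      have : lam ^ q = -lam := by linear_combination htr
      rw [this]; ring
    refine ⟨a, ha, ha0, -(lam * (ν + ν ^ q)), neg_ne_zero.2 (mul_ne_zero hl0 hν), ?_,
      g₃⁻¹ * (g₂ * g₁), X.mul_mem (X.inv_mem hg₃) (X.mul_mem hg₂ hg₁), fun x => ?_⟩
    · rw [hcq]; ring
    · rw [mul_mulVec]
      apply mulVec_inj g₃
      rw [mulVec_inv_mulVec, mul_mulVec, hx₁, hx₂, hx₃]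
      have hua : hermForm n F q u a = 0 := G₁.ti u hu a ha
      have hau : hermForm n F q a u = 0 := G₁.ti a ha u hu
      have huu : hermForm n F q u u = 0 := G₁.ti u hu u hu
      have haa : hermForm n F q a a = 0 := G₁.ti a ha a ha
      simp only [herm_add_left, herm_sub_left, herm_smul_left, herm_smul_right, hua, hau, huu, haa,
        add_pow_q hF, one_pow]
      funext i
      simp only [Pi.add_apply, Pi.sub_apply, Pi.smul_apply, smul_eq_mul]
      ring

/-- One transvection with centre in `A` gives all of them. -/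
theorem hasT_all (hk : 2 ≤ k) (hX : X ≤ SUg n F q) (G : Good q k X A A') {a : Fin n → F} (ha : a ∈ A)
    (ha0 : a ≠ 0) {c : F} (hc0 : c ≠ 0) (hc : c + c ^ q = 0) (h : HasT q X a c) :
    ∀ v ∈ A, ∀ c' : F, c' + c' ^ q = 0 → HasT q X v c' := by
  -- one step
  have hstep : ∀ w ∈ A, w ≠ 0 → ∀ v ∈ A, v ∉ Submodule.span F {w} → HasT q X w c → HasT q X v c := by
    intro w hw hw0 v hv hvw hwT
    have h1 : w ∉ Submodule.span F {v - w} := by
      intro hmem
      obtain ⟨t, ht⟩ := Submodule.mem_span_singleton.1 hmem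
      have ht0 : t ≠ 0 := by
        rintro rfl
        rw [zero_smul] at ht
        exact hw0 ht.symm
      apply hvw
      rw [Submodule.mem_span_singleton]
      refine ⟨t⁻¹ * (1 + t), ?_⟩
      have h2 : t • v = (1 + t) • w := by
        rw [smul_sub, sub_eq_iff_eq_add] at ht
        rw [add_smul, one_smul, ht]
      rw [mul_smul, ← h2, smul_smul, inv_mul_cancel₀ ht0, one_smul]
    obtain ⟨b, hb, hvb, hwb⟩ := G.exists_sep hF (A.sub_mem hv hw) hw h1
    obtain ⟨g, hg, hx⟩ := G.sg (v - w) (A.sub_mem hv hw) (((hermForm n F q w b)⁻¹ ^ q) • b)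
      (A'.smul_mem _ hb) (by rw [herm_smul_right, hvb, mul_zero])
    have hgw : (g : Matrix (Fin n) (Fin n) F) *ᵥ w = v := by
      rw [hx, herm_smul_right, pow_q_pow_q hF, inv_mul_cancel₀ hwb, G.ti w hw _ (A.sub_mem hv hw),
        one_smul, zero_smul, sub_zero]
      abel
    rw [← hgw]
    exact hwT.conj hg (Subgroup.mem_inf.1 (hX hg)).1
  have hall : ∀ v ∈ A, v ≠ 0 → HasT q X v c := by
    intro v hv hv0
    by_cases hva : v ∈ Submodule.span F {a}
    · obtain ⟨b, hb, hb0, d, hd, hdb⟩ := exists_indep (S := A) (by rw [G.rk]; exact hk)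
      -- some vector of `A` outside the span of `a`
      obtain ⟨w, hw, hwa⟩ : ∃ w ∈ A, w ∉ Submodule.span F {a} := by
        by_contra hcon
        push Not at hcon
        have h1 : A ≤ Submodule.span F {a} := hcon
        have h2 := Submodule.finrank_mono h1
        rw [finrank_span_singleton ha0, G.rk] at h2
        omega
      have hw0 : w ≠ 0 := by
        rintro rfl
        exact hwa (Submodule.zero_mem _)
      have hvw : v ∉ Submodule.span F {w} := by
        intro hmem
        obtain ⟨t, ht⟩ := Submodule.mem_span_singleton.1 hmem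
        have ht0 : t ≠ 0 := by
          rintro rfl
          rw [zero_smul] at ht
          exact hv0 ht.symm
        apply hwa
        have : w = t⁻¹ • v := by rw [← ht, smul_smul, inv_mul_cancel₀ ht0, one_smul]
        rw [this]
        exact Submodule.smul_mem _ _ hva
      exact hstep w hw hw0 v hv hvw (hstep a ha ha0 w hw hwa h)
    · exact hstep a ha ha0 v hv hva h
  intro v hv c' hc'
  by_cases hv0 : v = 0
  · refine ⟨1, X.one_mem, fun x => ?_⟩
    rw [hv0, smul_zero, add_zero, Units.val_one, Matrix.one_mulVec]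
  by_cases hc'0 : c' = 0
  · refine ⟨1, X.one_mem, fun x => ?_⟩
    rw [hc'0, zero_mul, zero_smul, add_zero, Units.val_one, Matrix.one_mulVec]
  have h1 : (c' / c) ^ q = c' / c := by
    rw [div_pow]
    have e1 : c' ^ q = -c' := by linear_combination hc'
    have e2 : c ^ q = -c := by linear_combination hc
    rw [e1, e2, neg_div_neg_eq]
  obtain ⟨ν, hν⟩ := exists_norm_eq hF h1
  have hν0 : ν ≠ 0 := by
    rintro rfl
    rw [zero_mul] at hν
    exact (div_ne_zero hc'0 hc0) hν.symm
  have h2 := hasT_smul hF (hall (ν • v) (A.smul_mem _ hv) (smul_ne_zero hν0 hv0))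
  rwa [hν, mul_div_cancel₀ _ hc0] at h2

/-- All transvections with centre in `A` or in `A'` generate `SU_n(q)`. -/
theorem SUg_le_of_hasT (h32 : ¬ (n = 3 ∧ q = 2)) (hX : X ≤ SUg n F q)
    (G : Good q k X A A')
    (h : ∀ v ∈ A, ∀ c : F, c + c ^ q = 0 → HasT q X v c)
    (h' : ∀ v ∈ A', ∀ c : F, c + c ^ q = 0 → HasT q X v c) : SUg n F q ≤ X := by
  -- case of `u + w`, `h(w, u) ≠ 0`
  have h1 : ∀ u ∈ A, ∀ w ∈ A', hermForm n F q w u ≠ 0 →
      hermForm n F q w u + (hermForm n F q w u) ^ q = 0 → ∀ c : F, c + c ^ q = 0 →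
      HasT q X (u + w) c := by
    intro u hu w hw hwu htr c hc
    have hci := inv_pow_of_trace hF htr
    obtain ⟨g, hg, hx⟩ := h u hu (hermForm n F q w u)⁻¹ (by rw [hci]; ring)
    have hgw : (g : Matrix (Fin n) (Fin n) F) *ᵥ w = u + w := by
      rw [hx, inv_mul_cancel₀ hwu, one_smul, add_comm]
    rw [← hgw]
    exact (h' w hw c hc).conj hg (Subgroup.mem_inf.1 (hX hg)).1
  apply SUg_le_of_tv hF h32
  intro v c hv hc
  apply HasT.tv_mem hF _ hv hc
  obtain ⟨u, hu, w, hw, rfl⟩ := G.decomp v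
  have hiso : hermForm n F q w u + (hermForm n F q w u) ^ q = 0 := by
    rw [← herm_swap hF]
    rw [herm_add_left, herm_add_right hF, herm_add_right hF, G.ti u hu u hu, G.ti' w hw w hw] at hv
    linear_combination hv
  by_cases hw0 : w = 0
  · rw [hw0, add_zero]; exact h u hu c hc
  by_cases hwu : hermForm n F q w u = 0
  · obtain ⟨u₁, hu₁, hwu₁⟩ := (G.symm hF).exists_ne hF hw hw0
    obtain ⟨c₁, hc₁0, hc₁⟩ := exists_trace_zero_ne hF
    obtain ⟨g, hg, hx⟩ := h u₁ hu₁ c₁ hc₁
    set u' := u - (c₁ * hermForm n F q w u₁) • u₁ with hu'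
    have hu'A : u' ∈ A := A.sub_mem hu (A.smul_mem _ hu₁)
    have hgv : (g : Matrix (Fin n) (Fin n) F) *ᵥ (u' + w) = u + w := by
      rw [hx, herm_add_left, G.ti u' hu'A u₁ hu₁, zero_add, hu']
      abel
    have hc₁q : c₁ ^ q = -c₁ := by linear_combination hc₁
    have hμ : hermForm n F q w u' = c₁ * (hermForm n F q w u₁ * hermForm n F q w u₁ ^ q) := by
      rw [hu', herm_sub_right hF, herm_smul_right, hwu, mul_pow, hc₁q]
      ring
    have hN : hermForm n F q w u₁ * hermForm n F q w u₁ ^ q ≠ 0 :=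
      fun h0 => hwu₁ ((norm_eq_zero hF).1 h0)
    rw [← hgv]
    refine (h1 u' hu'A w hw ?_ ?_ c hc).conj hg (Subgroup.mem_inf.1 (hX hg)).1
    · rw [hμ]
      exact mul_ne_zero hc₁0 hN
    · rw [hμ, mul_pow, norm_pow_q hF, hc₁q]
      ring
  · exact h1 u hu w hw hwu hiso c hc

end Cfsg.Agent.H918.Pair
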