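import Mathlib
import Cfsg.Agent.H918.PairTv

/-!
# An element of `SU_n(q)` interchanging two complementary totally isotropic subspaces
-/

set_option autoImplicit false
set_option linter.unusedSectionVars false

namespace Cfsg.Agent.H918.Pair

open Cfsg Cfsg.Agent.LieClassical.HermBasic Cfsg.Agent.H918
open scoped Matrix MatrixGroups

variable {F : Type*} [Field F] {n q : ℕ} [Fintype F] (hF : Fintype.card F = q ^ 2)

variable {k : ℕ} {X : Subgroup (Matrix.GeneralLinearGroup (Fin n) F)}
  {A A' A'' : Submodule F (Fin n → F)}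

include hF

/-- Dual vectors. -/
theorem exists_dual (G : Good q k X A A') (b : Module.Basis (Fin k) F A) :
    ∃ f : Fin k → (Fin n → F), (∀ j, f j ∈ A') ∧
      ∀ i j, hermForm n F q (f j) (b i : Fin n → F) = if i = j then 1 else 0 := by
  let Φ : A' →ₗ[F] (Fin k → F) :=
    { toFun := fun v i => hermForm n F q v (b i)
      map_add' := fun u v => by funext i; exact herm_add_left _ _ _
      map_smul' := fun c v => by funext i; exact herm_smul_left _ _ _ }
  have hinj : Function.Injective Φ := by
    rw [← LinearMap.ker_eq_bot, LinearMap.ker_eq_bot']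
    intro v hv
    have hv' : ∀ i, hermForm n F q v (b i : Fin n → F) = 0 := fun i => congrFun hv i
    have h0 : (v : Fin n → F) ∈ A := by
      apply G.mem_of_perp hF
      intro w hw
      have h1 : (⟨w, hw⟩ : A) = ∑ i, b.repr ⟨w, hw⟩ i • b i := (b.sum_repr ⟨w, hw⟩).symm
      have h2 : w = ∑ i, b.repr ⟨w, hw⟩ i • (b i : Fin n → F) := by
        have h3 := congrArg A.subtype h1
        rw [map_sum] at h3
        simpa only [Submodule.subtype_apply, map_smul] using h3
      rw [h2, herm_sum_right hF]
      apply Finset.sum_eq_zero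
      intro i _
      rw [herm_smul_right, hv' i, mul_zero]
    exact Subtype.ext (G.eq_zero h0 v.2)
  have hsurj : Function.Surjective Φ := by
    rwa [← LinearMap.injective_iff_surjective_of_finrank_eq_finrank]
    rw [G.rk', Module.finrank_fintype_fun_eq_card, Fintype.card_fin]
  choose f hf using fun j : Fin k => hsurj (Pi.single j 1)
  refine ⟨fun j => (f j : Fin n → F), fun j => (f j).2, fun i j => ?_⟩
  have := congrFun (hf j) i
  rw [Pi.single_apply] at this
  exact this

/-- The elementary swap. -/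
theorem exists_elem_swap {e f : Fin n → F} (he : hermForm n F q e e = 0) (hf : hermForm n F q f f = 0)
    (hfe : hermForm n F q f e = 1) {β : F} (hβ0 : β ≠ 0) (hβ : β + β ^ q = 0) :
    ∃ s ∈ SUg n F q, (s : Matrix (Fin n) (Fin n) F) *ᵥ e = (-β⁻¹) • f ∧
      (s : Matrix (Fin n) (Fin n) F) *ᵥ f = β • e ∧
      ∀ x : Fin n → F, hermForm n F q x e = 0 → hermForm n F q x f = 0 →
        (s : Matrix (Fin n) (Fin n) F) *ᵥ x = x := by
  have hef : hermForm n F q e f = 1 := by rw [herm_swap hF, hfe, one_pow]
  have hβi : (β⁻¹) ^ q = -β⁻¹ := inv_pow_of_trace hF hβ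
  have hα : -β⁻¹ + (-β⁻¹) ^ q = 0 := by rw [neg_pow_q hF, hβi]; ring
  refine ⟨tv hF e β he hβ * (tv hF f (-β⁻¹) hf hα * tv hF e β he hβ),
    Subgroup.mul_mem _ (tv_mem hF _ _) (Subgroup.mul_mem _ (tv_mem hF _ _) (tv_mem hF _ _)), ?_, ?_, ?_⟩
  · rw [mul_mulVec, mul_mulVec]
    simp only [tv_mulVec, he, hf, hef, hfe, herm_add_left, herm_smul_left, mul_zero, zero_smul, add_zero,
      mul_one, zero_add]
    funext i
    simp only [Pi.add_apply, Pi.smul_apply, smul_eq_mul]
    field_simp
    ring
  · rw [mul_mulVec, mul_mulVec]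
    simp only [tv_mulVec, he, hf, hef, hfe, herm_add_left, herm_smul_left, mul_zero, zero_smul, add_zero,
      mul_one, zero_add]
    funext i
    simp only [Pi.add_apply, Pi.smul_apply, smul_eq_mul]
    field_simp
    ring
  · intro x hxe hxf
    rw [mul_mulVec, mul_mulVec]
    simp only [tv_mulVec, hxe, hxf, mul_zero, zero_smul, add_zero]

/-- There is an element of `SU_n(q)` interchanging `A` and `A'`. -/
theorem exists_swap (G : Good q k X A A') : ∃ s ∈ SUg n F q,
    (∀ x ∈ A, (s : Matrix (Fin n) (Fin n) F) *ᵥ x ∈ A') ∧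
    (∀ x ∈ A', (s : Matrix (Fin n) (Fin n) F) *ᵥ x ∈ A) := by
  classical
  have hrk := G.rk
  let b : Module.Basis (Fin k) F A := Module.finBasisOfFinrankEq F A hrk
  obtain ⟨f, hfA, hf⟩ := exists_dual hF G b
  obtain ⟨β, hβ0, hβ⟩ := exists_trace_zero_ne hF
  have hbb : ∀ i j, hermForm n F q (b i : Fin n → F) (b j : Fin n → F) = 0 :=
    fun i j => G.ti _ (b i).2 _ (b j).2
  have hff : ∀ i j, hermForm n F q (f i) (f j) = 0 := fun i j => G.ti' _ (hfA i) _ (hfA j)
  have hbf : ∀ i j, hermForm n F q (b i : Fin n → F) (f j) = if i = j then 1 else 0 := by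
    intro i j
    rw [herm_swap hF, hf]
    split_ifs
    · rw [one_pow]
    · rw [zero_pow_q hF]
  choose s hs hse hsf hsx using fun i : Fin k =>
    exists_elem_swap hF (hbb i i) (hff i i) (by rw [hf, if_pos rfl]) hβ0 hβ
  have hse' : ∀ i j, i ≠ j → (s i : Matrix (Fin n) (Fin n) F) *ᵥ (b j : Fin n → F) = b j := by
    intro i j hij
    exact hsx i _ (hbb j i) (by rw [hbf, if_neg hij.symm])
  have hsf' : ∀ i j, i ≠ j → (s i : Matrix (Fin n) (Fin n) F) *ᵥ (f j) = f j := by
    intro i j hij
    exact hsx i _ (by rw [hf, if_neg hij]) (hff j i)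
  have key : ∀ l : List (Fin k), l.Nodup → ∀ j,
      (j ∈ l → ((l.map s).prod : Matrix.GeneralLinearGroup (Fin n) F).val *ᵥ (b j : Fin n → F) =
          (-β⁻¹) • f j ∧
        ((l.map s).prod : Matrix.GeneralLinearGroup (Fin n) F).val *ᵥ (f j) = β • (b j : Fin n → F)) ∧
      (j ∉ l → ((l.map s).prod : Matrix.GeneralLinearGroup (Fin n) F).val *ᵥ (b j : Fin n → F) =
          (b j : Fin n → F) ∧
        ((l.map s).prod : Matrix.GeneralLinearGroup (Fin n) F).val *ᵥ (f j) = f j) := by
    intro l
    induction l with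
    | nil =>
      intro _ j
      refine ⟨fun h => absurd h List.not_mem_nil, fun _ => ?_⟩
      simp
    | cons i l ih =>
      intro hnd j
      obtain ⟨hil, hl⟩ := List.nodup_cons.1 hnd
      rw [List.map_cons, List.prod_cons]
      constructor
      · intro hj
        rcases List.mem_cons.1 hj with rfl | hj
        · obtain ⟨h1, h2⟩ := (ih hl j).2 hil
          refine ⟨?_, ?_⟩
          · rw [mul_mulVec, h1, hse]
          · rw [mul_mulVec, h2, hsf]
        · have hij : i ≠ j := by rintro rfl; exact hil hj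
          obtain ⟨h1, h2⟩ := (ih hl j).1 hj
          refine ⟨?_, ?_⟩
          · rw [mul_mulVec, h1, Matrix.mulVec_smul, hsf' i j hij]
          · rw [mul_mulVec, h2, Matrix.mulVec_smul, hse' i j hij]
      · intro hj
        have hij : i ≠ j := by
          rintro rfl
          exact hj List.mem_cons_self
        have hjl : j ∉ l := fun h => hj (List.mem_cons_of_mem _ h)
        obtain ⟨h1, h2⟩ := (ih hl j).2 hjl
        refine ⟨?_, ?_⟩
        · rw [mul_mulVec, h1, hse' i j hij]
        · rw [mul_mulVec, h2, hsf' i j hij]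
  have hk := fun j => (key (List.finRange k) (List.nodup_finRange k) j).1 (List.mem_finRange j)
  refine ⟨((List.finRange k).map s).prod, Subgroup.list_prod_mem _ ?_, ?_, ?_⟩
  · intro x hx
    obtain ⟨i, -, rfl⟩ := List.mem_map.1 hx
    exact hs i
  · intro w hw
    have h1 : (⟨w, hw⟩ : A) = ∑ i, b.repr ⟨w, hw⟩ i • b i := (b.sum_repr ⟨w, hw⟩).symm
    have h2 : w = ∑ i, b.repr ⟨w, hw⟩ i • (b i : Fin n → F) := by
      have h3 := congrArg A.subtype h1
      rw [map_sum] at h3
      simpa only [Submodule.subtype_apply, map_smul] using h3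
    rw [h2, Matrix.mulVec_sum]
    apply Submodule.sum_mem
    intro i _
    rw [Matrix.mulVec_smul, (hk i).1]
    exact A'.smul_mem _ (A'.smul_mem _ (hfA i))
  · intro w hw
    have h2 : w = ∑ i, hermForm n F q w (b i : Fin n → F) • f i := by
      have h3 : w - ∑ i, hermForm n F q w (b i : Fin n → F) • f i ∈ A := by
        apply G.mem_of_perp hF
        intro a ha
        have h4 : (⟨a, ha⟩ : A) = ∑ i, b.repr ⟨a, ha⟩ i • b i := (b.sum_repr ⟨a, ha⟩).symm
        have h5 : a = ∑ i, b.repr ⟨a, ha⟩ i • (b i : Fin n → F) := by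
          have h6 := congrArg A.subtype h4
          rw [map_sum] at h6
          simpa only [Submodule.subtype_apply, map_smul] using h6
        rw [h5, herm_sum_right hF]
        apply Finset.sum_eq_zero
        intro j _
        rw [herm_smul_right, herm_sub_left, herm_sum_left]
        have h7 : ∑ i, hermForm n F q (hermForm n F q w (b i : Fin n → F) • f i) (b j : Fin n → F) =
            hermForm n F q w (b j : Fin n → F) := by
          rw [Finset.sum_eq_single j]
          · rw [herm_smul_left, hf, if_pos rfl, mul_one]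
          · intro i _ hij
            rw [herm_smul_left, hf, if_neg hij.symm, mul_zero]
          · intro h; exact absurd (Finset.mem_univ j) h
        rw [h7, sub_self, mul_zero]
      have h4 : w - ∑ i, hermForm n F q w (b i : Fin n → F) • f i ∈ A' :=
        A'.sub_mem hw (Submodule.sum_mem _ fun i _ => A'.smul_mem _ (hfA i))
      exact sub_eq_zero.1 (G.eq_zero h3 h4)
    rw [h2, Matrix.mulVec_sum]
    apply Submodule.sum_mem
    intro i _
    rw [Matrix.mulVec_smul, (hk i).2]
    exact A.smul_mem _ (A.smul_mem _ (b i).2)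

end Cfsg.Agent.H918.Pair
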