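import Mathlib
import Cfsg.Agent.H918.PairSwap

/-!
# The stabiliser of a pair of complementary totally isotropic subspaces is maximal in `SU_n(q)`

General `n = 2 k`, `k ≥ 3`, all `q`.
-/

set_option autoImplicit false
set_option linter.unusedSectionVars false

namespace Cfsg.Agent.H918.Pair

open Cfsg Cfsg.Agent.LieClassical.HermBasic Cfsg.Agent.H918
open scoped Matrix MatrixGroups

variable {F : Type*} [Field F] {n q : ℕ} [Fintype F] (hF : Fintype.card F = q ^ 2)

variable {k : ℕ} {X : Subgroup (Matrix.GeneralLinearGroup (Fin n) F)}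
  {U W : Submodule F (Fin n → F)}

/-- The `X`-translates of the pair `(U, W)`. -/
def Pr (X : Subgroup (Matrix.GeneralLinearGroup (Fin n) F)) (U W A A' : Submodule F (Fin n → F)) :
    Prop := ∃ g ∈ X, A = gm g U ∧ A' = gm g W

include hF

section

variable (hX : X ≤ SUg n F q) (G : Good q k X U W) {s : Matrix.GeneralLinearGroup (Fin n) F}
  (hs : s ∈ X) (hsU : gm s U = W) (hsW : gm s W = U)

include hX G in
theorem Pr.good {A A' : Submodule F (Fin n → F)} (h : Pr X U W A A') : Good q k X A A' := by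
  obtain ⟨g, hg, rfl, rfl⟩ := h
  exact G.conj hF hX hg

omit hF in
theorem Pr.conj {A A' : Submodule F (Fin n → F)} (h : Pr X U W A A')
    {x : Matrix.GeneralLinearGroup (Fin n) F} (hx : x ∈ X) : Pr X U W (gm x A) (gm x A') := by
  obtain ⟨g, hg, rfl, rfl⟩ := h
  exact ⟨x * g, X.mul_mem hx hg, (gm_mul _ _ _).symm, (gm_mul _ _ _).symm⟩

include hs hsU hsW in
omit hF in
theorem Pr.symm {A A' : Submodule F (Fin n → F)} (h : Pr X U W A A') : Pr X U W A' A := by
  obtain ⟨g, hg, rfl, rfl⟩ := h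
  exact ⟨g * s, X.mul_mem hg hs, by rw [gm_mul, hsU], by rw [gm_mul, hsW]⟩

variable (h32 : ¬ (n = 3 ∧ q = 2)) (hk : 3 ≤ k) (hbig : ¬ SUg n F q ≤ X)

include hX G hs hsU h32 hk hbig in
/-- The partner of `U` is unique. -/
theorem partner_unique {A' : Submodule F (Fin n → F)} (h : Good q k X U A') : A' = W := by
  by_contra hne
  apply hbig
  obtain ⟨a, ha, ha0, c, hc0, hc, hT⟩ := exists_hasT hF (by omega) G h (Ne.symm hne)
  have h1 := hasT_all hF (by omega) hX G ha ha0 hc0 hc hT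
  refine SUg_le_of_hasT hF h32 hX G h1 ?_
  intro v hv c' hc'
  rw [← hsU] at hv
  obtain ⟨u, hu, rfl⟩ := mem_gm.1 hv
  exact (h1 u hu c' hc').conj hs (Subgroup.mem_inf.1 (hX hs)).1

include hX G hs hsU h32 hk hbig in
theorem Pr.uniq {A A' B' : Submodule F (Fin n → F)} (h : Pr X U W A A') (h' : Good q k X A B') :
    B' = A' := by
  obtain ⟨g, hg, rfl, rfl⟩ := h
  have h1 := h'.conj hF hX (X.inv_mem hg)
  rw [gm_inv_gm] at h1
  have h2 := partner_unique hF hX G hs hsU h32 hk hbig h1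
  rw [← h2, gm_gm_inv]

include hX G hs hsU h32 hk hbig in
/-- No transvections with centre in a member of the orbit. -/
theorem Pr.not_hasT {A A' : Submodule F (Fin n → F)} (h : Pr X U W A A') {a : Fin n → F} (ha : a ∈ A)
    (ha0 : a ≠ 0) {c : F} (hc0 : c ≠ 0) (hc : c + c ^ q = 0) (hT : HasT q X a c) : False := by
  obtain ⟨g, hg, rfl, rfl⟩ := h
  obtain ⟨u, hu, rfl⟩ := mem_gm.1 ha
  have hu0 : u ≠ 0 := by
    rintro rfl
    exact ha0 (Matrix.mulVec_zero _)
  have hT' := hT.conj (X.inv_mem hg) (Subgroup.mem_inf.1 (hX (X.inv_mem hg))).1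
  rw [inv_mulVec_mulVec] at hT'
  apply hbig
  have h1 := hasT_all hF (by omega) hX G hu hu0 hc0 hc hT'
  refine SUg_le_of_hasT hF h32 hX G h1 ?_
  intro v hv c' hc'
  rw [← hsU] at hv
  obtain ⟨u, hu, rfl⟩ := mem_gm.1 hv
  exact (h1 u hu c' hc').conj hs (Subgroup.mem_inf.1 (hX hs)).1

include hX G hs hsU hsW h32 hk hbig in
/-- Siegel elements in common (argument of helper913). -/
theorem Pr.mem_of_perp {A A' B B' : Submodule F (Fin n → F)} (h : Pr X U W A A')
    (h' : Pr X U W B B') {b c : Fin n → F} (hbA : b ∈ A) (hbB : b ∈ B) (hb0 : b ≠ 0) (hc : c ∈ B')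
    (hbc : hermForm n F q b c = 0) : c ∈ A' := by
  have GA := h.good hF hX G
  have GB := h'.good hF hX G
  obtain ⟨g, hg, hx⟩ := GB.sg b hbB c hc hbc
  have hgA : gm g A = A := by
    apply gm_eq_of_mulVec_mem
    intro x hxA
    rw [hx, GA.ti x hxA b hbA, zero_smul, sub_zero]
    exact A.add_mem hxA (A.smul_mem _ hbA)
  have hgA' : gm g A' = A' := by
    have h1 := (h.conj hg).good hF hX G
    rw [hgA] at h1
    exact h.uniq hF hX G hs hsU h32 hk hbig h1
  obtain ⟨y, hy, hby, hyb⟩ := GA.exists_eq_one hF hbA hb0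
  set β := hermForm n F q y c with hβ
  have h2 : (g : Matrix (Fin n) (Fin n) F) *ᵥ y ∈ A' := by
    rw [← hgA']
    exact mulVec_mem_gm hy
  rw [hx, hyb, one_smul] at h2
  have h3 : c - β • b ∈ A' := by
    have h3 : c - β • b = y - (y + β • b - c) := by abel
    rw [h3]
    exact A'.sub_mem hy h2
  by_cases hβ0 : β = 0
  · rwa [hβ0, zero_smul, sub_zero] at h3
  exfalso
  set a₁ := c - β • b with ha₁
  have hca : c = a₁ + β • b := by rw [ha₁]; abel
  have hbb : hermForm n F q b b = 0 := GA.ti b hbA b hbA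
  have hba₁ : hermForm n F q b a₁ = 0 := by
    rw [ha₁, herm_sub_right hF, herm_smul_right, hbc, hbb, mul_zero, sub_zero]
  have ha₁b : hermForm n F q a₁ b = 0 := herm_eq_zero_swap hF hba₁
  obtain ⟨μ, hμ⟩ := exists_not_fixed hF
  -- `l * β ^ q = μ`
  set l := μ / β ^ q with hl
  have hβq : β ^ q ≠ 0 := fun h0 => hβ0 ((pow_q_eq_zero hF).1 h0)
  have hlβ : l * β ^ q = μ := div_mul_cancel₀ _ hβq
  have hlβ' : l ^ q * β = μ ^ q := by
    rw [← hlβ, mul_pow, pow_q_pow_q hF]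
  obtain ⟨g₁, hg₁, hx₁⟩ := GA.sg (l • b) (A.smul_mem _ hbA) (-a₁) (A'.neg_mem h3) (by
    rw [herm_smul_left, herm_neg_right hF, hba₁, neg_zero, mul_zero])
  obtain ⟨g₂, hg₂, hx₂⟩ := GB.sg (l • b) (B.smul_mem _ hbB) c hc (by
    rw [herm_smul_left, hbc, mul_zero])
  refine h.not_hasT hF hX G hs hsU h32 hk hbig hbA hb0 (c := μ - μ ^ q) (sub_ne_zero.2 (Ne.symm hμ)) ?_
    ⟨g₂ * g₁, X.mul_mem hg₂ hg₁, fun x => ?_⟩
  · rw [sub_pow_q hF, pow_q_pow_q hF]; ring
  · rw [mul_mulVec, hx₁, hx₂, hca, ← hlβ', ← hlβ]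
    simp only [herm_add_left, herm_sub_left, herm_smul_left, herm_add_right hF, herm_neg_right hF,
      herm_smul_right, herm_neg_left, hbb, hba₁, ha₁b, GA.ti' a₁ h3 a₁ h3]
    funext i
    simp only [Pi.add_apply, Pi.sub_apply, Pi.smul_apply, Pi.neg_apply, smul_eq_mul]
    ring

include hX G hs hsU hsW h32 hk hbig in
theorem Pr.le_finrank_inf {A A' B B' : Submodule F (Fin n → F)} (h : Pr X U W A A')
    (h' : Pr X U W B B') (hne : A ⊓ B ≠ ⊥) :
    k ≤ Module.finrank F (A' ⊓ B' : Submodule F (Fin n → F)) + 1 := by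
  obtain ⟨b, hb, hb0⟩ := Submodule.exists_mem_ne_zero_of_ne_bot hne
  obtain ⟨hbA, hbB⟩ := Submodule.mem_inf.1 hb
  have GB := h'.good hF hX G
  have h1 : B' ⊓ vp q b ≤ A' ⊓ B' := by
    intro c hc
    obtain ⟨hcB, hcb⟩ := Submodule.mem_inf.1 hc
    exact Submodule.mem_inf.2 ⟨h.mem_of_perp hF hX G hs hsU hsW h32 hk hbig h' hbA hbB hb0 hcB
      (herm_eq_zero_swap hF (mem_vp.1 hcb)), hcB⟩
  have h2 := Submodule.finrank_mono h1
  have h5 := finrank_le_inf_vp (q := q) B' b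
  rw [GB.rk'] at h5
  omega

include hX G hs hsU hsW h32 hk hbig in
/-- Distinct members of the orbit intersect trivially. -/
theorem Pr.inf_eq_bot {A A' B B' : Submodule F (Fin n → F)} (h : Pr X U W A A')
    (h' : Pr X U W B B') (hne : A ≠ B) : A ⊓ B = ⊥ := by
  by_contra hbot
  have GA := h.good hF hX G
  have GB := h'.good hF hX G
  have hs₁ := h.symm hs hsU hsW
  have hs₂ := h'.symm hs hsU hsW
  have h1 := h.le_finrank_inf hF hX G hs hsU hsW h32 hk hbig h' hbot
  have hbot' : A' ⊓ B' ≠ ⊥ := by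
    intro h0
    rw [h0, finrank_bot] at h1
    omega
  have h2 := hs₁.le_finrank_inf hF hX G hs hsU hsW h32 hk hbig hs₂ hbot'
  have h3 : B' = A' := by
    apply Submodule.eq_of_le_of_finrank_eq
    · intro c hc
      have h4 := finrank_le_inf_vp (q := q) (A ⊓ B) c
      obtain ⟨b, hb, hb0⟩ : ∃ b ∈ (A ⊓ B) ⊓ vp q c, b ≠ 0 := by
        apply Submodule.exists_mem_ne_zero_of_ne_bot
        intro h0
        rw [h0, finrank_bot] at h4
        omega
      obtain ⟨hbAB, hbc⟩ := Submodule.mem_inf.1 hb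
      obtain ⟨hbA, hbB⟩ := Submodule.mem_inf.1 hbAB
      exact h.mem_of_perp hF hX G hs hsU hsW h32 hk hbig h' hbA hbB hb0 hc (mem_vp.1 hbc)
    · rw [GA.rk', GB.rk']
  apply hne
  have h4 : Good q k X A' B := by rw [← h3]; exact hs₂.good hF hX G
  exact (hs₁.uniq hF hX G hs hsU h32 hk hbig h4).symm

include hX G hs hsU hsW h32 hk hbig in
/-- Every element of `X` preserves or interchanges `U` and `W`. -/
theorem preserves {g : Matrix.GeneralLinearGroup (Fin n) F} (hg : g ∈ X) :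
    (gm g U = U ∧ gm g W = W) ∨ (gm g U = W ∧ gm g W = U) := by
  have hUW : Pr X U W U W := ⟨1, X.one_mem, (gm_one _).symm, (gm_one _).symm⟩
  have hWU : Pr X U W W U := hUW.symm hs hsU hsW
  have hB := hUW.conj hg
  have GB := hB.good hF hX G
  by_cases h1 : gm g U = U
  · left
    refine ⟨h1, ?_⟩
    rw [h1] at GB
    exact hUW.uniq hF hX G hs hsU h32 hk hbig GB
  by_cases h2 : gm g U = W
  · right
    refine ⟨h2, ?_⟩
    rw [h2] at GB
    exact hWU.uniq hF hX G hs hsU h32 hk hbig GB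
  exfalso
  set B := gm g U with hBdef
  have hBU : B ⊓ U = ⊥ := hB.inf_eq_bot hF hX G hs hsU hsW h32 hk hbig hUW h1
  have hBW : B ⊓ W = ⊥ := hB.inf_eq_bot hF hX G hs hsU hsW h32 hk hbig hWU h2
  have hU0 : U ≠ ⊥ := by
    intro h0
    have := G.rk
    rw [h0, finrank_bot] at this
    omega
  obtain ⟨a, ha, ha0⟩ := Submodule.exists_mem_ne_zero_of_ne_bot hU0
  -- a vector of `B ∩ a^⊥` with `U`-component outside the span of `a`
  obtain ⟨x, hxB, hxa, u, hu, w, hw, huw, hua⟩ : ∃ x ∈ B, hermForm n F q x a = 0 ∧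
      ∃ u ∈ U, ∃ w ∈ W, u + w = x ∧ u ∉ Submodule.span F {a} := by
    by_contra hcon
    push Not at hcon
    have h3 : B ⊓ vp q a ≤ Submodule.span F {a} ⊔ W := by
      intro x hx
      obtain ⟨hxB, hxa⟩ := Submodule.mem_inf.1 hx
      obtain ⟨u, hu, w, hw, huw⟩ := G.decomp x
      have := hcon x hxB (mem_vp.1 hxa) u hu w hw huw
      rw [← huw]
      exact Submodule.add_mem_sup this hw
    have h4 : (B ⊓ vp q a) ⊔ W ≤ Submodule.span F {a} ⊔ W := sup_le h3 le_sup_right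
    have h5 := Submodule.finrank_mono h4
    have h6 := Submodule.finrank_add_le_finrank_add_finrank (Submodule.span F {a}) W
    rw [finrank_span_singleton ha0, G.rk'] at h6
    have h7 := Submodule.finrank_sup_add_finrank_inf_eq (B ⊓ vp q a) W
    have h8 : (B ⊓ vp q a) ⊓ W = ⊥ := by
      rw [eq_bot_iff, ← hBW]
      exact inf_le_inf_right _ inf_le_left
    rw [h8, finrank_bot, G.rk'] at h7
    have h9 := finrank_le_inf_vp (q := q) B a
    rw [GB.rk] at h9
    omega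
  obtain ⟨b, hb, hab, hub⟩ := G.exists_sep hF ha hu hua
  have hxb : hermForm n F q x b ≠ 0 := by
    rw [← huw, herm_add_left, G.ti' w hw b hb, add_zero]
    exact hub
  obtain ⟨g₁, hg₁, hx₁⟩ := G.sg a ha b hb hab
  have hne : B ≠ gm g₁ B := by
    intro heq
    have h3 : (g₁ : Matrix (Fin n) (Fin n) F) *ᵥ x ∈ B := by
      rw [heq]
      exact mulVec_mem_gm hxB
    rw [hx₁, hxa, zero_smul, sub_zero] at h3
    have h4 : hermForm n F q x b • a ∈ B := by
      have := B.sub_mem h3 hxB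
      rwa [add_sub_cancel_left] at this
    have h5 : a ∈ B := by
      have : a = (hermForm n F q x b)⁻¹ • (hermForm n F q x b • a) := by
        rw [smul_smul, inv_mul_cancel₀ hxb, one_smul]
      rw [this]
      exact B.smul_mem _ h4
    have h6 : a ∈ B ⊓ U := Submodule.mem_inf.2 ⟨h5, ha⟩
    rw [hBU] at h6
    exact ha0 ((Submodule.mem_bot F).1 h6)
  have hbot := hB.inf_eq_bot hF hX G hs hsU hsW h32 hk hbig (hB.conj hg₁) hne
  have h3 : (B ⊓ vp q a) ⊓ vp q b ≤ B ⊓ gm g₁ B := by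
    intro y hy
    obtain ⟨hy1, hyb⟩ := Submodule.mem_inf.1 hy
    obtain ⟨hyB, hya⟩ := Submodule.mem_inf.1 hy1
    refine Submodule.mem_inf.2 ⟨hyB, mem_gm.2 ⟨y, hyB, ?_⟩⟩
    rw [hx₁, mem_vp.1 hya, mem_vp.1 hyb, zero_smul, zero_smul, add_zero, sub_zero]
  have h4 := Submodule.finrank_mono h3
  rw [hbot, finrank_bot] at h4
  have h5 := finrank_le_inf_vp (q := q) B a
  have h6 := finrank_le_inf_vp (q := q) (B ⊓ vp q a) b
  rw [GB.rk] at h5
  omega

end

end Cfsg.Agent.H918.Pair
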