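import Mathlib
import Cfsg.Agent.H918.PairMain

/-!
# The stabiliser of a pair of complementary totally isotropic subspaces is maximal in `SU_n(q)`

`pair_maximal`: `n = 2 k`, `k ≥ 3`, all `q`.
-/

set_option autoImplicit false
set_option linter.unusedSectionVars false

namespace Cfsg.Agent.H918.Pair

open Cfsg Cfsg.Agent.LieClassical.HermBasic Cfsg.Agent.H918
open scoped Matrix MatrixGroups

variable {F : Type*} [Field F] {n q : ℕ}

/-- An element preserving or interchanging `D 0` and `D 1` stabilises the decomposition. -/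
theorem mem_decompositionStabilizer_two {D : Fin 2 → Submodule F (Fin n → F)}
    {g : Matrix.GeneralLinearGroup (Fin n) F}
    (h : (gm g (D 0) = D 0 ∧ gm g (D 1) = D 1) ∨ (gm g (D 0) = D 1 ∧ gm g (D 1) = D 0)) :
    g ∈ Geo.decompositionStabilizer D := by
  rcases h with ⟨h0, h1⟩ | ⟨h0, h1⟩
  · refine ⟨1, fun i => ?_⟩
    fin_cases i
    · exact h0
    · exact h1
  · refine ⟨Equiv.swap 0 1, fun i => ?_⟩
    fin_cases i
    · simpa [gm] using h0
    · simpa [gm] using h1

/-- The stabiliser in `SU_{2k}(q)`, `k ≥ 3`, of a pair of complementary totally isotropic subspaces is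
a maximal subgroup. -/
theorem pair_maximal [Fintype F] (hF : Fintype.card F = q ^ 2) {k : ℕ} (hk : 3 ≤ k)
    (hkn : 2 * k = n) (D : Fin 2 → Submodule F (Fin n → F)) (hD : Geo.IsMDecomposition k D)
    (hts : ∀ i, Geo.IsTotallySingularFor (hermForm n F q) (D i)) :
    Geo.IsMaximalIn (SUg n F q) (Geo.decompositionStabilizer D ⊓ SUg n F q) := by
  have hn : 3 ≤ n := by omega
  have h32 : ¬ (n = 3 ∧ q = 2) := by omega
  have hsup : D 0 ⊔ D 1 = ⊤ := by
    rw [← hD.iSup_eq_top]
    apply le_antisymm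
    · exact sup_le (le_iSup D 0) (le_iSup D 1)
    · apply iSup_le
      intro i
      fin_cases i
      · exact le_sup_left
      · exact le_sup_right
  have hinf : D 0 ⊓ D 1 = ⊥ := by
    have := hD.indep.pairwiseDisjoint (show (0 : Fin 2) ≠ 1 by decide)
    exact this.eq_bot
  -- the pair is good for every overgroup
  have hgoodM : Good q k (Geo.decompositionStabilizer D ⊓ SUg n F q) (D 0) (D 1) := by
    refine ⟨fun x hx y hy => hts 0 x hx y hy, fun x hx y hy => hts 1 x hx y hy, hsup, hinf,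
      hD.finrank_eq 0, hD.finrank_eq 1, fun a ha b hb hab => ?_⟩
    have hba := herm_eq_zero_swap hF hab
    obtain ⟨g, hg, hx⟩ := hasS_SUg hF (hts 0 a ha a ha) (hts 1 b hb b hb) hab
    refine ⟨g, Subgroup.mem_inf.2 ⟨mem_decompositionStabilizer_two (Or.inl ⟨?_, ?_⟩), hg⟩, hx⟩
    · apply gm_eq_of_mulVec_mem
      intro x hxA
      rw [hx, hts 0 x hxA a ha, zero_smul, sub_zero]
      exact (D 0).add_mem hxA ((D 0).smul_mem _ ha)
    · apply gm_eq_of_mulVec_mem
      intro x hxA
      rw [hx, hts 1 x hxA b hb, zero_smul, add_zero]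
      exact (D 1).sub_mem hxA ((D 1).smul_mem _ hb)
  obtain ⟨s, hs, hs0, hs1⟩ := exists_swap hF hgoodM
  have hs0' : gm s (D 0) = D 1 := by
    apply Submodule.eq_of_le_of_finrank_eq
    · intro x hx
      obtain ⟨y, hy, rfl⟩ := mem_gm.1 hx
      exact hs0 y hy
    · rw [finrank_gm, hD.finrank_eq, hD.finrank_eq]
  have hs1' : gm s (D 1) = D 0 := by
    apply Submodule.eq_of_le_of_finrank_eq
    · intro x hx
      obtain ⟨y, hy, rfl⟩ := mem_gm.1 hx
      exact hs1 y hy
    · rw [finrank_gm, hD.finrank_eq, hD.finrank_eq]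
  have hsM : s ∈ Geo.decompositionStabilizer D ⊓ SUg n F q :=
    Subgroup.mem_inf.2 ⟨mem_decompositionStabilizer_two (Or.inr ⟨hs0', hs1'⟩), hs⟩
  refine ⟨lt_of_le_of_ne inf_le_right ?_, fun X hMX hX => ?_⟩
  · intro heq
    exact SUg_not_le_decompositionStabilizer hF hn h32 hD (inf_eq_right.1 heq)
  · have hgood : Good q k X (D 0) (D 1) := by
      refine ⟨hgoodM.ti, hgoodM.ti', hsup, hinf, hD.finrank_eq 0, hD.finrank_eq 1,
        fun a ha b hb hab => ?_⟩
      obtain ⟨g, hg, hx⟩ := hgoodM.sg a ha b hb hab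
      exact ⟨g, hMX hg, hx⟩
    by_cases hbig : SUg n F q ≤ X
    · right
      exact le_antisymm hX hbig
    · left
      apply le_antisymm _ hMX
      intro g hg
      refine Subgroup.mem_inf.2 ⟨mem_decompositionStabilizer_two ?_, hX hg⟩
      exact preserves hF hX hgood (hMX hsM) hs0' hs1' h32 hk hbig hg

end Cfsg.Agent.H918.Pair
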