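import Cfsg.Agent.H918.SUEightMax
import Cfsg.Agent.H876.FrameMax
import Cfsg.Agent.H920.CsFinal

/-!
# Clause (11) of S5819 from the statement (D) (helper918)
-/

set_option autoImplicit false

namespace Cfsg.Agent.H918

open Cfsg Cfsg.Geo Matrix Cfsg.Agent.H920

/-- The class-6 subgroups of `SU_8(p)` are maximal, given (D) and the Schreier property. -/
theorem su_eight_c6 {F : Type*} [Field F] [Fintype F] (q : ℕ) (hF : Fintype.card F = q ^ 2)
    (hsch : SchAll (Fin 8) F)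
    (hD : ∀ (p : ℕ) (R : Subgroup (GL (Fin 8) F)), p.Prime → q = p → p % 4 = 3 → Nat.card (Subgroup.center R) = 4 →
      R ≤ GU 8 F q →
      ∀ (C : Coord R 2 3) (Y X P : Subgroup (GL (Fin 8) F)), X ≤ GU 8 F q ⊓ specialLinear (Fin 8) F →
        IsOver C Y X P → GU 8 F q ⊓ specialLinear (Fin 8) F ≤ P) :
    ∀ (p : ℕ) (R : Subgroup (Matrix.GeneralLinearGroup (Fin 8) F)), p.Prime → q = p → p % 4 = 3 → Cfsg.Geo.IsSymplecticTypeGroup 2 R → Cfsg.Geo.ActsAbsolutelyIrreducibly (Cfsg.Geo.matrixSet R) → R ≤ Cfsg.GU 8 F q → Nat.card R = 256 → Nat.card (Subgroup.center R) = 4 → Cfsg.Geo.IsMaximalIn (Cfsg.GU 8 F q ⊓ Cfsg.Geo.specialLinear (Fin 8) F) (Cfsg.Geo.subgroupNormalizer R ⊓ (Cfsg.GU 8 F q ⊓ Cfsg.Geo.specialLinear (Fin 8) F)) := by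
  intro p R hp hqp h4 hR habs hRU hcR hcZ
  have hchar : CharP F p := by
    obtain ⟨r, hr⟩ := CharP.exists F
    have : Fact p.Prime := ⟨hp⟩
    obtain ⟨n, hrp, hn⟩ := FiniteField.card F r
    have h1 : p ^ 2 = r ^ (n : ℕ) := by rw [← hn, hF, hqp]
    have h2 : r = p := by
      have h3 : r ∣ p ^ 2 := by rw [h1]; exact dvd_pow_self r n.ne_zero
      exact (Nat.prime_dvd_prime_iff_eq hrp hp).1 (hrp.dvd_of_dvd_pow h3)
    rwa [h2] at hr
  have hmin : IsMinimalFieldFor (Nat.card (Subgroup.center R)) p 2 F := by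
    refine ⟨hp, hchar, by rw [hF, hqp], ?_, ?_⟩
    · rw [hcZ]
      have h1 : p ^ 2 % 4 = 1 := by
        rw [Nat.pow_mod, h4]
      have h2 : 1 ≤ p ^ 2 := Nat.one_le_pow _ _ hp.pos
      exact (Nat.modEq_iff_dvd' h2).1 (by rw [Nat.ModEq, h1])
    · intro d hd0 hd2 hdvd
      have : d = 1 := by omega
      subst this
      rw [hcZ, pow_one] at hdvd
      have := hp.two_le
      omega
  exact maximal_SU hF (by norm_num) hR habs hRU hmin (k := 3) (Or.inr ⟨rfl, hcZ, by rw [hcR]; norm_num⟩) hsch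
    (fun C Y X P hX hP => hD p R hp hqp h4 hcZ hRU C Y X P hX hP)

end Cfsg.Agent.H918
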