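import Cfsg.Agent.H876.SingMax
import Cfsg.Agent.H876.NondegMax
import Cfsg.Agent.H876.OMax
import Cfsg.Agent.H918.PairMax
import Cfsg.Agent.H880.UFinal
import Cfsg.Agent.H930.GUSubG
import Cfsg.Agent.H930.SpInSU
import Cfsg.Agent.H927.OrthMax

/-!
# The geometric maximal subgroups of `SU_8(q)`: assembly

All items of statement S5819 except the frames of 1-spaces (hypothesis `h3`) and the normaliser of the
extraspecial group (hypothesis `h11`).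
-/

set_option autoImplicit false

namespace Cfsg.Agent.H918

open Cfsg

theorem su_eight_max {F : Type*} [Field F] [Fintype F] (q : ℕ) (hF : Fintype.card F = q ^ 2)
    (h3 : ∀ D : Fin 8 → Submodule F (Fin 8 → F), Cfsg.Geo.IsNondegenerateMDecomposition (Cfsg.hermForm 8 F q) 1 D → Cfsg.Geo.IsMaximalIn (Cfsg.GU 8 F q ⊓ Cfsg.Geo.specialLinear (Fin 8) F) (Cfsg.Geo.decompositionStabilizer D ⊓ (Cfsg.GU 8 F q ⊓ Cfsg.Geo.specialLinear (Fin 8) F)))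
    (h11 : ∀ (p : ℕ) (R : Subgroup (Matrix.GeneralLinearGroup (Fin 8) F)), p.Prime → q = p → p % 4 = 3 → Cfsg.Geo.IsSymplecticTypeGroup 2 R → Cfsg.Geo.ActsAbsolutelyIrreducibly (Cfsg.Geo.matrixSet R) → R ≤ Cfsg.GU 8 F q → Nat.card R = 256 → Nat.card (Subgroup.center R) = 4 → Cfsg.Geo.IsMaximalIn (Cfsg.GU 8 F q ⊓ Cfsg.Geo.specialLinear (Fin 8) F) (Cfsg.Geo.subgroupNormalizer R ⊓ (Cfsg.GU 8 F q ⊓ Cfsg.Geo.specialLinear (Fin 8) F))) :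
    (∀ W : Submodule F (Fin 8 → F), W ≠ ⊥ → Cfsg.Geo.IsTotallySingularFor (Cfsg.hermForm 8 F q) W → Cfsg.Geo.IsMaximalIn (Cfsg.GU 8 F q ⊓ Cfsg.Geo.specialLinear (Fin 8) F) (Cfsg.Geo.subspaceStabilizer W ⊓ (Cfsg.GU 8 F q ⊓ Cfsg.Geo.specialLinear (Fin 8) F))) ∧
    (∀ W : Submodule F (Fin 8 → F), W ≠ ⊥ → Cfsg.Geo.IsNondegenerateOn (Cfsg.hermForm 8 F q) W → 2 * Module.finrank F W < 8 → Cfsg.Geo.IsMaximalIn (Cfsg.GU 8 F q ⊓ Cfsg.Geo.specialLinear (Fin 8) F) (Cfsg.Geo.subspaceStabilizer W ⊓ (Cfsg.GU 8 F q ⊓ Cfsg.Geo.specialLinear (Fin 8) F))) ∧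
    (∀ D : Fin 8 → Submodule F (Fin 8 → F), Cfsg.Geo.IsNondegenerateMDecomposition (Cfsg.hermForm 8 F q) 1 D → Cfsg.Geo.IsMaximalIn (Cfsg.GU 8 F q ⊓ Cfsg.Geo.specialLinear (Fin 8) F) (Cfsg.Geo.decompositionStabilizer D ⊓ (Cfsg.GU 8 F q ⊓ Cfsg.Geo.specialLinear (Fin 8) F))) ∧
    (3 ≤ q → ∀ D : Fin 4 → Submodule F (Fin 8 → F), Cfsg.Geo.IsNondegenerateMDecomposition (Cfsg.hermForm 8 F q) 2 D → Cfsg.Geo.IsMaximalIn (Cfsg.GU 8 F q ⊓ Cfsg.Geo.specialLinear (Fin 8) F) (Cfsg.Geo.decompositionStabilizer D ⊓ (Cfsg.GU 8 F q ⊓ Cfsg.Geo.specialLinear (Fin 8) F))) ∧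
    (∀ D : Fin 2 → Submodule F (Fin 8 → F), Cfsg.Geo.IsNondegenerateMDecomposition (Cfsg.hermForm 8 F q) 4 D → Cfsg.Geo.IsMaximalIn (Cfsg.GU 8 F q ⊓ Cfsg.Geo.specialLinear (Fin 8) F) (Cfsg.Geo.decompositionStabilizer D ⊓ (Cfsg.GU 8 F q ⊓ Cfsg.Geo.specialLinear (Fin 8) F))) ∧
    (∀ D : Fin 2 → Submodule F (Fin 8 → F), Cfsg.Geo.IsMDecomposition 4 D → (∀ i, Cfsg.Geo.IsTotallySingularFor (Cfsg.hermForm 8 F q) (D i)) → Cfsg.Geo.IsMaximalIn (Cfsg.GU 8 F q ⊓ Cfsg.Geo.specialLinear (Fin 8) F) (Cfsg.Geo.decompositionStabilizer D ⊓ (Cfsg.GU 8 F q ⊓ Cfsg.Geo.specialLinear (Fin 8) F))) ∧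
    (3 ≤ q → ∀ (e : Fin 8 ≃ Fin 2 × Fin 4) (P : Matrix.GeneralLinearGroup (Fin 8) F) (f₁ : (Fin 2 → F) → (Fin 2 → F) → F) (f₂ : (Fin 4 → F) → (Fin 4 → F) → F), Cfsg.Geo.IsUnitaryFormPow q f₁ → Cfsg.Geo.IsUnitaryFormPow q f₂ → Cfsg.Geo.IsTensorFormStructure (fun x : F => x ^ q) (Cfsg.hermForm 8 F q) f₁ f₂ e P → Cfsg.Geo.IsMaximalIn (Cfsg.GU 8 F q ⊓ Cfsg.Geo.specialLinear (Fin 8) F) (Cfsg.Geo.tensorProductSubgroup 2 4 e P ⊓ (Cfsg.GU 8 F q ⊓ Cfsg.Geo.specialLinear (Fin 8) F))) ∧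
    (∀ (F₀ : Subfield F) (r : ℕ) (P : Matrix.GeneralLinearGroup (Fin 8) F), r.Prime → Odd r → Fintype.card F = Nat.card F₀ ^ r → Cfsg.Geo.IsFormRationalStructure (Cfsg.hermForm 8 F q) F₀ 1 P → Cfsg.Geo.IsMaximalIn (Cfsg.GU 8 F q ⊓ Cfsg.Geo.specialLinear (Fin 8) F) (Cfsg.Geo.subfieldSubgroup F₀ P ⊓ (Cfsg.GU 8 F q ⊓ Cfsg.Geo.specialLinear (Fin 8) F))) ∧
    (∀ (F₀ : Subfield F) (P : Matrix.GeneralLinearGroup (Fin 8) F) (ζ : F), Fintype.card F = Nat.card F₀ ^ 2 → ζ ≠ 0 → ζ + ζ ^ q = 0 → Cfsg.Geo.IsFormRationalStructure (Cfsg.hermForm 8 F q) F₀ ζ P → (∀ u : Fin 8 → F, (∀ i, u i ∈ F₀) → (Cfsg.hermForm 8 F q) (Matrix.mulVec (P : Matrix (Fin 8) (Fin 8) F) u) (Matrix.mulVec (P : Matrix (Fin 8) (Fin 8) F) u) = 0) → Cfsg.Geo.IsMaximalIn (Cfsg.GU 8 F q ⊓ Cfsg.Geo.specialLinear (Fin 8) F) (Cfsg.Geo.subfieldSubgroup F₀ P ⊓ (Cfsg.GU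 8 F q ⊓ Cfsg.Geo.specialLinear (Fin 8) F))) ∧
    (Odd q → ∀ (F₀ : Subfield F) (P : Matrix.GeneralLinearGroup (Fin 8) F), Fintype.card F = Nat.card F₀ ^ 2 → Cfsg.Geo.IsFormRationalStructure (Cfsg.hermForm 8 F q) F₀ 1 P → Cfsg.Geo.IsMaximalIn (Cfsg.GU 8 F q ⊓ Cfsg.Geo.specialLinear (Fin 8) F) (Cfsg.Geo.subfieldSubgroup F₀ P ⊓ (Cfsg.GU 8 F q ⊓ Cfsg.Geo.specialLinear (Fin 8) F))) ∧
    (∀ (p : ℕ) (R : Subgroup (Matrix.GeneralLinearGroup (Fin 8) F)), p.Prime → q = p → p % 4 = 3 → Cfsg.Geo.IsSymplecticTypeGroup 2 R → Cfsg.Geo.ActsAbsolutelyIrreducibly (Cfsg.Geo.matrixSet R) → R ≤ Cfsg.GU 8 F q → Nat.card R = 256 → Nat.card (Subgroup.center R) = 4 → Cfsg.Geo.IsMaximalIn (Cfsg.GU 8 F q ⊓ Cfsg.Geo.specialLinear (Fin 8) F) (Cfsg.Geo.subgroupNormalizer R ⊓ (Cfsg.GU 8 F q ⊓ Cfsg.Geo.specialLinear (Fin 8) F))) := by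
  have h32 : ¬ (8 = 3 ∧ q = 2) := by omega
  refine ⟨fun W hW0 hW => ?_, fun W hW0 hW hd => ?_, h3, fun hq D hD => ?_, fun D hD => ?_, fun D hD hs => ?_,
    fun hq e P f₁ f₂ hf₁ hf₂ hT => ?_, fun F₀ r P hr hro hcard hP => ?_, fun F₀ P ζ hcard hζ0 hζ hP halt => ?_,
    fun hodd F₀ P hcard hP => ?_, h11⟩
  · exact Cfsg.Agent.H876.Sing.sing_maximal 8 q hF (by norm_num) h32 W hW0 hW
  · exact Cfsg.Agent.H876.nondeg_maximal 8 q hF (by norm_num) h32 W hW0 hW hd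
  · exact Cfsg.Agent.H876.odec_maximal 8 q hF (by norm_num) h32 2 D hD (by norm_num) (Or.inl hq) (Or.inl (by norm_num))
  · exact Cfsg.Agent.H876.odec_maximal 8 q hF (by norm_num) h32 4 D hD (by norm_num) (Or.inr (by norm_num))
      (Or.inr (by norm_num))
  · exact Pair.pair_maximal hF (by norm_num) (by norm_num) D hD hs
  · exact Cfsg.Agent.H880.tensor_maximal hF (by norm_num) (by norm_num) (by norm_num) (by omega) e P f₁ f₂ hf₁ hf₂ hT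
  · have : Fintype F₀ := Fintype.ofFinite F₀
    exact Cfsg.Agent.H930.GUSub.maximal hF (by norm_num) hr hro hcard hP
  · exact Cfsg.Agent.H930.SpInSU.maximal hF hcard hζ0 hζ hP halt (by norm_num)
  · exact Cfsg.Agent.H927.orthogonal_maximal hF (by norm_num) hodd F₀ hcard P hP

end Cfsg.Agent.H918
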